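import Cfsg.Agent.H98.MaximalUSubOrthMain
import Cfsg.Agent.H60.SULow.Stab

set_option autoImplicit false
set_option linter.style.haveILetI false
set_option linter.unusedSectionVars false

/-!
# Orthogonal subfield subgroups of `SU_4`: the base lemmas

Without rational centres an element fixing one non-zero rational vector is rational.
-/

namespace Cfsg.Agent.H60.SUFour

open scoped Matrix
open Cfsg.Agent.H98 Cfsg.Agent.H98.Herm

variable {F : Type*} [Field F] [Fintype F] {q n : ℕ}

local notation "Mat" => Matrix (Fin n) (Fin n) F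

/-- Hypotheses: the form in the given coordinates is rational and symmetric on rational vectors. -/
structure OrthFour (hF : Fintype.card F = q ^ 2) (F₀ : Subfield F) (P : GL (Fin n) F) : Prop where
  hn : n = 4
  hq : 5 ≤ q
  card : Nat.card F₀ = q
  two : (2 : F) ≠ 0
  fixed : ∀ x, frobQ hF x = x ↔ x ∈ F₀
  rat : ∀ u v : Fin n → F, IsRatVec F₀ u → IsRatVec F₀ v → pullForm n q P u v ∈ F₀

section
variable {hF : Fintype.card F = q ^ 2} {F₀ : Subfield F} {P : GL (Fin n) F} (H : OrthFour hF F₀ P)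
include H

/-- The pulled back form is unitary. -/
theorem OrthFour.herm : Cfsg.Geo.IsUnitaryForm (frobQ hF) (pullForm n q P) := isUnitary_pull hF P

theorem OrthFour.symm {u v : Fin n → F} (hu : IsRatVec F₀ u) (hv : IsRatVec F₀ v) :
    pullForm n q P v u = pullForm n q P u v := by
  rw [H.herm.herm v u]; exact (H.fixed _).mpr (H.rat u v hu hv)

theorem OrthFour.sigma_rat {r : Fin n → F} (hr : IsRatVec F₀ r) (x : Fin n) : frobQ hF (r x) = r x :=
  (H.fixed _).mpr (hr x)

theorem OrthFour.two_mem : (2 : F) ∈ F₀ := one_add_one_eq_two (R := F) ▸ add_mem (one_mem F₀) (one_mem F₀)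

/-- Splitting into rational parts. -/
theorem OrthFour.decomp {ε : F} (hε0 : ε ≠ 0) (hε : frobQ hF ε = -ε) (v : Fin n → F) :
    ∃ a b, IsRatVec F₀ a ∧ IsRatVec F₀ b ∧ v = a + ε • b := by
  set b : Fin n → F := fun x => (v x - frobQ hF (v x)) / (2 * ε)
  have h2ε : 2 * ε ≠ 0 := mul_ne_zero H.two hε0
  have hb : IsRatVec F₀ b := fun x => (H.fixed _).mp (by
    simp only [b, map_div₀, map_sub, map_mul, H.herm.involutive, hε, map_ofNat]
    rw [← neg_sub (v x), mul_neg, neg_div_neg_eq])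
  refine ⟨v - ε • b, b, fun x => (H.fixed _).mp ?_, hb, by rw [sub_add_cancel]⟩
  simp only [Pi.sub_apply, Pi.smul_apply, smul_eq_mul, map_sub, map_mul, H.sigma_rat hb x, hε]
  simp only [b]
  have := H.two
  field_simp
  ring

/-- Rational parts of a vector orthogonal to a rational vector are orthogonal to it. -/
theorem OrthFour.split_zero {ε : F} (hε0 : ε ≠ 0) (hε : frobQ hF ε = -ε) {c d : F} (hc : c ∈ F₀) (hd : d ∈ F₀)
    (h : c + ε * d = 0) : c = 0 ∧ d = 0 := by
  have h1 := congrArg (frobQ hF) h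
  rw [map_add, map_mul, map_zero, (H.fixed _).mpr hc, (H.fixed _).mpr hd, hε] at h1
  have hd0 : d = 0 := (mul_eq_zero.mp (show (2 * ε) * d = 0 by linear_combination h - h1)).resolve_left
    (mul_ne_zero H.two hε0)
  exact ⟨by rw [hd0] at h; linear_combination h, hd0⟩

/-- A rational vector with non-zero product. -/
theorem OrthFour.exists_nonorth {w : Fin n → F} (hw : w ≠ 0) :
    ∃ z : Fin n → F, IsRatVec F₀ z ∧ pullForm n q P z w ≠ 0 := by
  by_contra hc
  push Not at hc
  obtain ⟨x, hx⟩ := (H.herm.nondegenerate w hw).1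
  rw [← fl_apply H.herm, pi_eq_sum_univ' x, map_sum] at hx
  exact hx (Finset.sum_eq_zero fun i _ => by rw [map_smul, fl_apply, hc _ (isRat_single i), smul_zero])

/-- The common orthogonal of the given vectors. -/
noncomputable def ratPerp {k : ℕ} (v : Fin k → Fin n → F) : Submodule F (Fin n → F) :=
  LinearMap.ker (LinearMap.pi fun i => fl H.herm (v i))

/-- An anisotropic rational vector orthogonal to few rational vectors. -/
theorem OrthFour.aniso_or {k : ℕ} (v : Fin k → Fin n → F) (hv : ∀ i, IsRatVec F₀ (v i)) :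
    (∃ x, IsRatVec F₀ x ∧ (∀ i, pullForm n q P x (v i) = 0) ∧ pullForm n q P x x ≠ 0) ∨
      ∀ x ∈ ratPerp H v, ∀ y ∈ ratPerp H v, pullForm n q P x y = 0 := by
  obtain ⟨ε, hε0, hε⟩ := exists_skew H.herm
  by_cases hc : ∃ x, IsRatVec F₀ x ∧ (∀ i, pullForm n q P x (v i) = 0) ∧ pullForm n q P x x ≠ 0
  · exact Or.inl hc
  push Not at hc
  refine Or.inr ?_
  set U := LinearMap.ker (LinearMap.pi fun i => fl H.herm (v i))
  have hrr : ∀ x y, IsRatVec F₀ x → IsRatVec F₀ y → x ∈ U → y ∈ U → pullForm n q P x y = 0 := by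
    intro x y hx hy hxU hyU
    have e1 := hc x hx ((mem_perp H.herm v x).mp hxU)
    have e2 := hc y hy ((mem_perp H.herm v y).mp hyU)
    have e3 := hc (x + y) (isRat_add hx hy) ((mem_perp H.herm v (x + y)).mp (U.add_mem hxU hyU))
    rw [H.herm.add_left, add_right H.herm, add_right H.herm, e1, e2, H.symm hx hy] at e3
    exact (mul_eq_zero.mp (show (2 : F) * pullForm n q P x y = 0 by linear_combination e3)).resolve_left H.two
  have hTI : ∀ x ∈ U, ∀ y ∈ U, pullForm n q P x y = 0 := by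
    intro x hx y hy
    obtain ⟨a, b, ha, hb, rfl⟩ := H.decomp hε0 hε x
    obtain ⟨c, d, hc', hd, rfl⟩ := H.decomp hε0 hε y
    have hparts : ∀ a b, IsRatVec F₀ a → IsRatVec F₀ b → a + ε • b ∈ U → a ∈ U ∧ b ∈ U := fun a b ha hb h => by
      have hh : ∀ i, pullForm n q P a (v i) = 0 ∧ pullForm n q P b (v i) = 0 := fun i => by
        have := (mem_perp H.herm v _).mp h i
        rw [H.herm.add_left, H.herm.smul_left] at this
        exact H.split_zero hε0 hε (H.rat _ _ ha (hv i)) (H.rat _ _ hb (hv i)) this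
      exact ⟨(mem_perp H.herm v a).mpr fun i => (hh i).1, (mem_perp H.herm v b).mpr fun i => (hh i).2⟩
    obtain ⟨haU, hbU⟩ := hparts a b ha hb hx
    obtain ⟨hcU, hdU⟩ := hparts c d hc' hd hy
    rw [H.herm.add_left, add_right H.herm, add_right H.herm, H.herm.smul_left, H.herm.smul_left, smul_right H.herm,
      smul_right H.herm, hrr a c ha hc' haU hcU, hrr a d ha hd haU hdU, hrr b c hb hc' hbU hcU, hrr b d hb hd hbU hdU]
    ring
  exact hTI

/-- An anisotropic rational vector orthogonal to less than half as many rational vectors. -/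
theorem OrthFour.exists_aniso {k : ℕ} (hk : 2 * k < n) (v : Fin k → Fin n → F) (hv : ∀ i, IsRatVec F₀ (v i)) :
    ∃ x, IsRatVec F₀ x ∧ (∀ i, pullForm n q P x (v i) = 0) ∧ pullForm n q P x x ≠ 0 := by
  refine (H.aniso_or v hv).resolve_right fun hTI => ?_
  have h1 := ti_bound H.herm _ hTI
  have h2 := finrank_perp H.herm v
  change Fintype.card (Fin n) ≤ Module.finrank F (ratPerp H v) + k at h2
  rw [Fintype.card_fin] at h1 h2
  omega

/-- Isotropic leftovers orthogonal to an anisotropic vector and to its complement are orthogonal to everything. -/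
theorem OrthFour.ti_step {k : ℕ} (v : Fin k → Fin n → F) {x : Fin n → F} (hx : x ∈ ratPerp H v)
    (hxx : pullForm n q P x x ≠ 0) {u : Fin n → F} (hu : u ∈ ratPerp H (Fin.cons x v))
    (hperp : ∀ y ∈ ratPerp H (Fin.cons x v), pullForm n q P u y = 0) :
    u ∈ ratPerp H v ∧ ∀ y ∈ ratPerp H v, pullForm n q P u y = 0 := by
  unfold ratPerp at *
  simp only [mem_perp] at *
  have hux : pullForm n q P u x = 0 := by simpa using hu 0
  refine ⟨fun i => by simpa using hu i.succ, fun y hy => ?_⟩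
  set c := pullForm n q P y x / pullForm n q P x x with hc
  have h1 := hperp (y - c • x) fun i => by
    refine Fin.cases ?_ (fun j => ?_) i
    · simp [sub_left H.herm, H.herm.smul_left, hc, div_mul_cancel₀ _ hxx]
    · simp [sub_left H.herm, H.herm.smul_left, hy j, hx j]
  rwa [sub_right H.herm, smul_right H.herm, hux, mul_zero, sub_zero] at h1

/-- The radical left over is small. -/
theorem OrthFour.ti_small {k : ℕ} (v : Fin k → Fin n → F) {U : Submodule F (Fin n → F)}
    (hU : ∀ u ∈ U, ∀ y ∈ ratPerp H v, pullForm n q P u y = 0) : Module.finrank F U ≤ k := by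
  have hle : U ≤ Submodule.span F (Set.range v) := fun u hu => by
    rw [← perp_perp H.herm (Submodule.span F (Set.range v)), mem_perpW H.herm]
    exact fun y hy => hU u hu y ((mem_perp H.herm v y).mpr fun i =>
      (mem_perpW H.herm).mp hy _ (Submodule.subset_span ⟨i, rfl⟩))
  exact (Submodule.finrank_mono hle).trans ((finrank_range_le_card v).trans (Fintype.card_fin k).le)

/-- A binary form with anisotropic basis takes every rational value. -/
theorem OrthFour.solve {x₁ x₂ : Fin n → F} (hx₁ : IsRatVec F₀ x₁) (hx₂ : IsRatVec F₀ x₂)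
    (a₁ : pullForm n q P x₁ x₁ ≠ 0) (a₂ : pullForm n q P x₂ x₂ ≠ 0) {g : F} (hg : g ∈ F₀) :
    ∃ s t, s ∈ F₀ ∧ t ∈ F₀ ∧
      pullForm n q P x₁ x₁ * s ^ 2 + (pullForm n q P x₂ x₂ * t ^ 2 + g) = 0 := by
  classical
  haveI := Fintype.ofFinite F₀
  set α : F₀ := ⟨pullForm n q P x₁ x₁, H.rat _ _ hx₁ hx₁⟩
  set β : F₀ := ⟨pullForm n q P x₂ x₂, H.rat _ _ hx₂ hx₂⟩
  set γ : F₀ := ⟨g, hg⟩
  have hα : α ≠ 0 := fun h => a₁ (congrArg Subtype.val h)
  have hβ : β ≠ 0 := fun h => a₂ (congrArg Subtype.val h)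
  have hodd : Fintype.card F₀ % 2 = 1 := by
    rcases Nat.mod_two_eq_zero_or_one (Fintype.card F₀) with h | h
    · exfalso
      haveI : CharP F₀ 2 := ringChar.of_eq (FiniteField.even_card_iff_char_two.mpr h)
      exact H.two (congrArg Subtype.val (CharTwo.two_eq_zero (R := F₀)))
    · exact h
  obtain ⟨s, t, hst⟩ := FiniteField.exists_root_sum_quadratic
    (f := Polynomial.C α * Polynomial.X ^ 2) (g := Polynomial.C β * Polynomial.X ^ 2 + Polynomial.C γ)
    (Polynomial.degree_C_mul_X_pow 2 hα)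
    (by rw [Polynomial.degree_add_C (by rw [Polynomial.degree_C_mul_X_pow 2 hβ]; decide)]
        exact Polynomial.degree_C_mul_X_pow 2 hβ) hodd
  exact ⟨s, t, s.2, t.2, by simpa [α, β, γ] using congrArg Subtype.val hst⟩

/-- A non-zero rational vector orthogonal to fewer than `n` rational vectors. -/
theorem OrthFour.exists_rat_perp {k : ℕ} (hk : k < n) (v : Fin k → Fin n → F) (hv : ∀ i, IsRatVec F₀ (v i)) :
    ∃ x, IsRatVec F₀ x ∧ x ≠ 0 ∧ ∀ i, pullForm n q P x (v i) = 0 := by
  obtain ⟨ε, hε0, hε⟩ := exists_skew H.herm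
  have hd := finrank_perp H.herm v
  change Fintype.card (Fin n) ≤ Module.finrank F (ratPerp H v) + k at hd
  rw [Fintype.card_fin] at hd
  have hne : ratPerp H v ≠ ⊥ := fun h => by rw [h, finrank_bot] at hd; omega
  obtain ⟨u, hu, hu0⟩ := Submodule.exists_mem_ne_zero_of_ne_bot hne
  obtain ⟨a, b, ha, hb, rfl⟩ := H.decomp hε0 hε u
  have hh : ∀ i, pullForm n q P a (v i) = 0 ∧ pullForm n q P b (v i) = 0 := fun i => by
    have := (mem_perp H.herm v _).mp hu i
    rw [H.herm.add_left, H.herm.smul_left] at this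
    exact H.split_zero hε0 hε (H.rat _ _ ha (hv i)) (H.rat _ _ hb (hv i)) this
  by_cases ha0 : a = 0
  · exact ⟨b, hb, fun h => hu0 (by rw [ha0, h, smul_zero, add_zero]), fun i => (hh i).2⟩
  · exact ⟨a, ha, ha0, fun i => (hh i).1⟩

/-- A non-zero rational isotropic vector orthogonal to rational vectors leaving three dimensions. -/
theorem OrthFour.exists_iso_perp {k : ℕ} (hk : k + 3 ≤ n) (v : Fin k → Fin n → F) (hv : ∀ i, IsRatVec F₀ (v i)) :
    ∃ z, IsRatVec F₀ z ∧ z ≠ 0 ∧ pullForm n q P z z = 0 ∧ ∀ i, pullForm n q P z (v i) = 0 := by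
  obtain ⟨x₁, hx₁, hx₁0, o₁⟩ := H.exists_rat_perp (by omega) v hv
  by_cases a₁ : pullForm n q P x₁ x₁ = 0
  · exact ⟨x₁, hx₁, hx₁0, a₁, o₁⟩
  have hv₁ : ∀ i, IsRatVec F₀ ((Fin.cons x₁ v : Fin (k + 1) → Fin n → F) i) := fun i => Fin.cases hx₁ hv i
  obtain ⟨x₂, hx₂, hx₂0, o₂⟩ := H.exists_rat_perp (by omega) (Fin.cons x₁ v) hv₁
  have o₂' : ∀ i, pullForm n q P x₂ (v i) = 0 := fun i => by simpa using o₂ i.succ
  by_cases a₂ : pullForm n q P x₂ x₂ = 0
  · exact ⟨x₂, hx₂, hx₂0, a₂, o₂'⟩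
  have hv₂ : ∀ i, IsRatVec F₀ ((Fin.cons x₂ (Fin.cons x₁ v) : Fin (k + 1 + 1) → Fin n → F) i) :=
    fun i => Fin.cases hx₂ hv₁ i
  obtain ⟨x₃, hx₃, hx₃0, o₃⟩ := H.exists_rat_perp (by omega) (Fin.cons x₂ (Fin.cons x₁ v)) hv₂
  have o₃' : ∀ i, pullForm n q P x₃ (v i) = 0 := fun i => by simpa using o₃ i.succ.succ
  by_cases a₃ : pullForm n q P x₃ x₃ = 0
  · exact ⟨x₃, hx₃, hx₃0, a₃, o₃'⟩
  have h21 : pullForm n q P x₂ x₁ = 0 := by simpa using o₂ 0
  have h32 : pullForm n q P x₃ x₂ = 0 := by simpa using o₃ 0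
  have h31 : pullForm n q P x₃ x₁ = 0 := by simpa using o₃ (Fin.succ 0)
  have h12 := (eq_zero_comm H.herm).mp h21
  have h13 := (eq_zero_comm H.herm).mp h31
  have h23 := (eq_zero_comm H.herm).mp h32
  obtain ⟨s, t, hs, ht, hst⟩ := H.solve hx₁ hx₂ a₁ a₂ (H.rat _ _ hx₃ hx₃)
  set z := s • x₁ + t • x₂ + x₃ with hz
  have hz3 : pullForm n q P z x₃ = pullForm n q P x₃ x₃ := by
    simp only [hz, H.herm.add_left, H.herm.smul_left, h13, h23]; ring
  refine ⟨z, isRat_add (isRat_add (isRat_smul hs hx₁) (isRat_smul ht hx₂)) hx₃,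
    fun h => a₃ (by rw [← hz3, h, zero_left H.herm]), ?_, fun i => ?_⟩
  · simp only [hz, H.herm.add_left, add_right H.herm, H.herm.smul_left, smul_right H.herm, (H.fixed _).mpr hs,
      (H.fixed _).mpr ht, h21, h31, h32, h12, h13, h23]
    linear_combination hst
  · simp only [hz, H.herm.add_left, H.herm.smul_left, o₁ i, o₂' i, o₃' i]; ring

/-- A rational Siegel element. -/
theorem OrthFour.eich_rat {x z : Fin n → F} (hx : IsRatVec F₀ x) (hz : IsRatVec F₀ z)
    (hzz : pullForm n q P z z = 0) (hxz : pullForm n q P x z = 0) :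
    eich H.herm hzz hxz (- pullForm n q P x x / 2) ∈ subGroupF (Fin n) F₀ ⊓ isoSL (pullForm n q P) := by
  haveI : Nonempty (Fin n) := ⟨⟨0, by have := H.hn; omega⟩⟩
  have hγF : - pullForm n q P x x / 2 ∈ F₀ := div_mem (neg_mem (H.rat _ _ hx hx)) H.two_mem
  refine ⟨mem_subGroupF.mpr ⟨1, one_ne_zero, fun a b => ?_⟩, fun u v => eich_iso H.herm hzz hxz ?_ u v,
    eich_mem_sl H.herm hzz hxz _⟩
  · have h := congrFun (eich_mulVec H.herm hzz hxz (- pullForm n q P x x / 2) (Pi.single b 1)) a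
    rw [Matrix.mulVec_single_one, Matrix.col_apply] at h
    rw [one_mul, h]
    exact isRat_add (isRat_sub (isRat_single b) (isRat_smul (H.rat _ _ (isRat_single b) hx) hz))
      (isRat_smul (H.rat _ _ (isRat_single b) hz) (isRat_add hx (isRat_smul hγF hz))) a
  · rw [(H.fixed _).mpr hγF]; have := H.two; field_simp; ring

/-- Ordered products of two Siegel elements differ by a transvection. -/
theorem OrthFour.eich_comm {x x' z : Fin n → F} (hz : pullForm n q P z z = 0) (hxz : pullForm n q P x z = 0)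
    (hxz' : pullForm n q P x' z = 0) (γ γ' : F) :
    eich H.herm hz hxz γ * eich H.herm hz hxz' γ' =
      uT H.herm hz (pullForm n q P x x' - pullForm n q P x' x) * (eich H.herm hz hxz' γ' * eich H.herm hz hxz γ) := by
  refine gl_ext fun y => ?_
  simp only [Units.val_mul, ← Matrix.mulVec_mulVec, eich_mulVec, uT_mulVec, sub_left H.herm, H.herm.add_left,
    H.herm.smul_left, hz, hxz, hxz', (eq_zero_comm H.herm).mp hxz, (eq_zero_comm H.herm).mp hxz', mul_zero, add_zero,
    sub_zero]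
  module

/-- A rational Siegel pair carrying an isotropic vector to a multiple of its partner. -/
theorem OrthFour.move {u w r : Fin n → F} (huu : pullForm n q P u u = 0) (hww : pullForm n q P w w = 0)
    (hu : IsRatVec F₀ u) (hw : IsRatVec F₀ w) (huw : pullForm n q P u w = 1) (hr : IsRatVec F₀ r)
    (hru : pullForm n q P r u = 0) (hrw : pullForm n q P r w = 0) (hrr : pullForm n q P r r ≠ 0) :
    ∃ k ∈ subGroupF (Fin n) F₀ ⊓ isoSL (pullForm n q P),
      (k : Mat) *ᵥ u = (- pullForm n q P r r / 2) • w := by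
  set γ := - pullForm n q P r r / 2 with hγ
  have hγ0 : γ ≠ 0 := div_ne_zero (neg_ne_zero.mpr hrr) H.two
  have hγF : γ ∈ F₀ := div_mem (neg_mem (H.rat _ _ hr hr)) H.two_mem
  have hr' : pullForm n q P ((-γ⁻¹) • r) u = 0 := by rw [H.herm.smul_left, hru, mul_zero]
  refine ⟨_, Subgroup.mul_mem _ (H.eich_rat (isRat_smul (neg_mem (inv_mem hγF)) hr) hu huu hr')
    (H.eich_rat hr hw hww hrw), ?_⟩
  have hwu : pullForm n q P w u = 1 := by rw [H.symm hu hw]; exact huw
  have hur : pullForm n q P u r = 0 := (eq_zero_comm H.herm).mp hru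
  have hwr : pullForm n q P w r = 0 := (eq_zero_comm H.herm).mp hrw
  have hσ : frobQ hF (-γ⁻¹) = -γ⁻¹ := (H.fixed _).mpr (neg_mem (inv_mem hγF))
  simp only [Units.val_mul, ← Matrix.mulVec_mulVec, eich_mulVec, huw, hur, zero_smul, sub_zero, one_smul, ← hγ,
    H.herm.add_left, H.herm.smul_left, smul_right H.herm, hru, hwu, huu, hwr, hσ, mul_zero, mul_one, add_zero,
    zero_add]
  have h2 : pullForm n q P r r = -2 * γ := by rw [hγ]; have := H.two; field_simp
  rw [h2]
  have h22 := H.two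
  match_scalars <;> field_simp <;> ring

/-- The rational torus element of a hyperbolic pair. -/
theorem OrthFour.torus {z y : Fin n → F} (hzz : pullForm n q P z z = 0) (hyy : pullForm n q P y y = 0)
    (hz : IsRatVec F₀ z) (hy : IsRatVec F₀ y) (hzy : pullForm n q P z y = 1) {l : F} (hl : l ∈ F₀) (hl0 : l ≠ 0) :
    ∃ k ∈ subGroupF (Fin n) F₀ ⊓ isoSL (pullForm n q P), (k : Mat) *ᵥ z = l • z := by
  haveI : Nonempty (Fin n) := ⟨⟨0, by have := H.hn; omega⟩⟩
  have hyz : pullForm n q P y z = 1 := by rw [H.symm hz hy]; exact hzy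
  have hu : ∀ b : F, (b • fl H.herm z) z = 0 := fun b => by rw [LinearMap.smul_apply, fl_apply, hzz, smul_zero]
  have hd : ∀ b : F, (b • fl H.herm y) y = 0 := fun b => by rw [LinearMap.smul_apply, fl_apply, hyy, smul_zero]
  set k := transGL _ z (hu l) * transGL _ y (hd (-l⁻¹)) * transGL _ z (hu l) * transGL _ z (hu (-1)) *
    transGL _ y (hd 1) * transGL _ z (hu (-1)) with hk
  have hkv : ∀ v, (k : Mat) *ᵥ v =
      v + ((l - 1) * pullForm n q P v y) • z + ((l⁻¹ - 1) * pullForm n q P v z) • y := fun v => by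
    simp only [hk, Units.val_mul, ← Matrix.mulVec_mulVec, transGL_mulVec, LinearMap.smul_apply, fl_apply,
      smul_eq_mul, H.herm.add_left, H.herm.smul_left, hzz, hyy, hzy, hyz, mul_zero, mul_one, add_zero]
    match_scalars <;> field_simp <;> ring
  refine ⟨k, ⟨mem_subGroupF.mpr ⟨1, one_ne_zero, fun a b => ?_⟩, fun u v => ?_, ?_⟩, ?_⟩
  · have h := congrFun (hkv (Pi.single b 1)) a
    rw [Matrix.mulVec_single_one, Matrix.col_apply] at h
    rw [one_mul, h]
    exact isRat_add (isRat_add (isRat_single b) (isRat_smul (mul_mem (sub_mem hl (one_mem _))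
      (H.rat _ _ (isRat_single b) hy)) hz)) (isRat_smul (mul_mem (sub_mem (inv_mem hl) (one_mem _))
      (H.rat _ _ (isRat_single b) hz)) hy) a
  · change pullForm n q P ((k : Mat) *ᵥ u) ((k : Mat) *ᵥ v) = _
    simp only [hkv, H.herm.add_left, add_right H.herm, H.herm.smul_left, smul_right H.herm, map_mul, map_sub, map_one,
      map_inv₀, (H.fixed _).mpr hl, sigma_apply H.herm, hzz, hyy, hzy, hyz]
    field_simp
    ring
  · rw [hk]
    exact Subgroup.mul_mem _ (Subgroup.mul_mem _ (Subgroup.mul_mem _ (Subgroup.mul_mem _ (Subgroup.mul_mem _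
      (transGL_mem_sl _ _ _) (transGL_mem_sl _ _ _)) (transGL_mem_sl _ _ _)) (transGL_mem_sl _ _ _))
      (transGL_mem_sl _ _ _)) (transGL_mem_sl _ _ _)
  · rw [hkv, hzy, hzz]; module

variable {M : Subgroup (GL (Fin n) F)} (hle : subGroupF (Fin n) F₀ ⊓ isoSL (pullForm n q P) ≤ M)
  (hsu : M ≤ isoSL (pullForm n q P))
include hle hsu

/-- A single transvection with rational isotropic centre gives the whole centre. -/
theorem OrthFour.centre_of_one {z y : Fin n → F} (hz : IsRatVec F₀ z) (hzz : pullForm n q P z z = 0)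
    (hy : IsRatVec F₀ y) (hyy : pullForm n q P y y = 0) (hzy : pullForm n q P z y = 1)
    {d : F} (hd0 : d ≠ 0) (hd : frobQ hF d = -d) (hmem : uT H.herm hzz d ∈ M) : z ∈ centres H.herm M := by
  have hiso : ∀ k ∈ M, ∀ a b, pullForm n q P ((k : Mat) *ᵥ a) ((k : Mat) *ᵥ b) = pullForm n q P a b :=
    fun k hk => (mem_isoSL.mp (hsu hk)).1
  have hsq : ∀ r : F, r ∈ F₀ → uT H.herm hzz (r * r * d) ∈ M := by
    intro r hr
    rcases eq_or_ne r 0 with rfl | hr0
    · convert M.one_mem using 1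
      exact gl_ext fun v => by simp [uT_mulVec]
    obtain ⟨k, hk, e⟩ := H.torus hzz hyy hz hy hzy hr hr0
    have hkz : pullForm n q P ((k : Mat) *ᵥ z) ((k : Mat) *ᵥ z) = 0 := by rw [hiso k (hle hk)]; exact hzz
    have h1 := M.mul_mem (M.mul_mem (hle hk) hmem) (M.inv_mem (hle hk))
    rw [conj_uT H.herm (hiso k (hle hk)) hzz d hkz] at h1
    convert h1 using 1
    refine gl_ext fun v => ?_
    rw [uT_mulVec, uT_mulVec, e, smul_right H.herm, (H.fixed _).mpr hr, smul_smul]
    congr 2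
    ring
  refine ⟨hzz, fun d' hd' => ?_⟩
  have hF₀ : d' / d ∈ F₀ := (H.fixed _).mp (by rw [map_div₀, hd', hd, neg_div_neg_eq])
  set t := d' / d with ht
  have h2 := H.two
  have h1 := M.mul_mem (hsq ((t + 1) / 2) (div_mem (add_mem hF₀ (one_mem _)) H.two_mem))
    (M.inv_mem (hsq ((t - 1) / 2) (div_mem (sub_mem hF₀ (one_mem _)) H.two_mem)))
  convert h1 using 1
  rw [eq_mul_inv_iff_mul_eq]
  refine gl_ext fun v => ?_
  have e : d' = t * d := by rw [ht, div_mul_cancel₀ _ hd0]
  simp only [Units.val_mul, ← Matrix.mulVec_mulVec, uT_mulVec, H.herm.add_left, H.herm.smul_left, hzz, mul_zero,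
    add_zero, e]
  match_scalars <;> field_simp <;> ring


end

section
variable {hF : Fintype.card F = q ^ 2} {F₀ : Subfield F} {P : GL (Fin n) F} (H : OrthFour hF F₀ P)
include H

/-- Partners in a plane. -/
theorem OrthFour.partner {z : Fin n → F} (hz : IsRatVec F₀ z) (hzz : pullForm n q P z z = 0) (hz0 : z ≠ 0) :
    ∃ y, IsRatVec F₀ y ∧ pullForm n q P y y = 0 ∧ pullForm n q P z y = 1 := by
  obtain ⟨y₀, hy₀, h0⟩ := H.exists_nonorth hz0
  set c := (pullForm n q P y₀ z)⁻¹ with hc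
  have hcF : c ∈ F₀ := inv_mem (H.rat _ _ hy₀ hz)
  set y₁ := c • y₀ with hy₁
  have hy₁r : IsRatVec F₀ y₁ := isRat_smul hcF hy₀
  have h1 : pullForm n q P y₁ z = 1 := by rw [hy₁, H.herm.smul_left, hc, inv_mul_cancel₀ h0]
  have h1' : pullForm n q P z y₁ = 1 := by rw [H.symm hy₁r hz]; exact h1
  clear_value y₁
  set μ := - pullForm n q P y₁ y₁ / 2 with hμ
  have hμF : μ ∈ F₀ := div_mem (neg_mem (H.rat _ _ hy₁r hy₁r)) H.two_mem
  refine ⟨y₁ + μ • z, isRat_add hy₁r (isRat_smul hμF hz), ?_, ?_⟩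
  · simp only [H.herm.add_left, add_right H.herm, H.herm.smul_left, smul_right H.herm, (H.fixed _).mpr hμF, h1, h1',
      hzz]
    rw [hμ]
    have := H.two
    field_simp
    ring
  · rw [add_right H.herm, smul_right H.herm, hzz, h1', mul_zero, add_zero]

/-- A vector in the line of its conjugate is a multiple of a rational vector. -/
theorem OrthFour.line_rat {w : Fin n → F} {α : F} (hw0 : w ≠ 0) (h : ∀ x, frobQ hF (w x) = α * w x) :
    ∃ (k : F) (r : Fin n → F), IsRatVec F₀ r ∧ w = k • r := by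
  obtain ⟨p, hp⟩ := Function.ne_iff.mp hw0
  refine ⟨w p, (w p)⁻¹ • w, fun x => (H.fixed _).mp ?_, by rw [smul_smul, mul_inv_cancel₀ hp, one_smul]⟩
  have hα : α ≠ 0 := fun hα => hp (by
    have := h p
    rw [hα, zero_mul] at this
    rw [← H.herm.involutive (w p), this, map_zero]; rfl)
  simp only [Pi.smul_apply, smul_eq_mul, map_mul, map_inv₀, h, mul_inv]
  field_simp

/-- An isotropic vector and a vector of product one with it, both orthogonal to given vectors, give a pair. -/
theorem OrthFour.pair_of {k : ℕ} (v : Fin k → Fin n → F) {z y : Fin n → F} (hz : IsRatVec F₀ z) (hy : IsRatVec F₀ y)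
    (hzz : pullForm n q P z z = 0) (hzy : pullForm n q P z y = 1) (oz : ∀ i, pullForm n q P z (v i) = 0)
    (oy : ∀ i, pullForm n q P y (v i) = 0) :
    ∃ z y, IsRatVec F₀ z ∧ IsRatVec F₀ y ∧ (∀ i, pullForm n q P z (v i) = 0) ∧ (∀ i, pullForm n q P y (v i) = 0) ∧
      pullForm n q P z z = 0 ∧ pullForm n q P y y = 0 ∧ pullForm n q P z y = 1 ∧ pullForm n q P y z = 1 := by
  set μ := - pullForm n q P y y / 2 with hμ
  have hμF : μ ∈ F₀ := div_mem (neg_mem (H.rat _ _ hy hy)) H.two_mem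
  have hyz : pullForm n q P y z = 1 := by rw [H.symm hz hy]; exact hzy
  refine ⟨z, y + μ • z, hz, isRat_add hy (isRat_smul hμF hz), oz,
    fun i => by rw [H.herm.add_left, H.herm.smul_left, oy i, oz i, mul_zero, add_zero], hzz, ?_, ?_, ?_⟩
  · simp only [H.herm.add_left, add_right H.herm, H.herm.smul_left, smul_right H.herm, (H.fixed _).mpr hμF, hzy,
      hyz, hzz]
    rw [hμ]
    have := H.two
    field_simp
    ring
  · rw [add_right H.herm, smul_right H.herm, hzz, hzy, mul_zero, add_zero]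
  · rw [H.herm.add_left, H.herm.smul_left, hzz, hyz, mul_zero, add_zero]

/-- A rational hyperbolic pair. -/
theorem OrthFour.pair0 :
    ∃ z y, IsRatVec F₀ z ∧ IsRatVec F₀ y ∧ pullForm n q P z z = 0 ∧ pullForm n q P y y = 0 ∧
      pullForm n q P z y = 1 ∧ pullForm n q P y z = 1 := by
  obtain ⟨z, hz, hz0, hzz, -⟩ := H.exists_iso_perp (k := 0) (by have := H.hn; omega) Fin.elim0 (fun i => Fin.elim0 i)
  obtain ⟨y, hy, hyy, hzy⟩ := H.partner hz hzz hz0
  exact ⟨z, y, hz, hy, hzz, hyy, hzy, by rw [H.symm hz hy]; exact hzy⟩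

/-- A pair orthogonal to an anisotropic vector. -/
theorem OrthFour.pair_perp_aniso {a : Fin n → F} (ha : IsRatVec F₀ a) (haa : pullForm n q P a a ≠ 0) :
    ∃ z y, IsRatVec F₀ z ∧ IsRatVec F₀ y ∧ pullForm n q P z a = 0 ∧ pullForm n q P y a = 0 ∧
      pullForm n q P z z = 0 ∧ pullForm n q P y y = 0 ∧ pullForm n q P z y = 1 ∧ pullForm n q P y z = 1 := by
  obtain ⟨x, hx, hx0, hxx, ox⟩ := H.exists_iso_perp (k := 1) (by have := H.hn; omega) ![a]
    (fun i => by fin_cases i; exact ha)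
  obtain ⟨w, hw, -, hxw⟩ := H.partner hx hxx hx0
  have x0 : pullForm n q P x a = 0 := by simpa using ox 0
  set c := pullForm n q P w a / pullForm n q P a a with hc
  have hcF : c ∈ F₀ := div_mem (H.rat _ _ hw ha) (H.rat _ _ ha ha)
  have hxw' : pullForm n q P x (w - c • a) = 1 := by
    rw [sub_right H.herm, smul_right H.herm, x0, hxw, mul_zero, sub_zero]
  have ow : ∀ i, pullForm n q P (w - c • a) (![a] i) = 0 := fun i => by
    fin_cases i; simp [sub_left H.herm, H.herm.smul_left, hc, div_mul_cancel₀ _ haa]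
  obtain ⟨z, y, hz, hy, oz, oy, h1, h2, h3, h4⟩ := H.pair_of ![a] hx (isRat_sub hw (isRat_smul hcF ha)) hxx hxw' ox ow
  exact ⟨z, y, hz, hy, by simpa using oz 0, by simpa using oy 0, h1, h2, h3, h4⟩

/-- Rational vectors orthogonal to an anisotropic vector are spanned by such isotropic ones. -/
theorem OrthFour.rat_span_perp {a : Fin n → F} (ha : IsRatVec F₀ a) (haa : pullForm n q P a a ≠ 0)
    {p : (Fin n → F) → Prop} (hadd : ∀ a b, p a → p b → p (a + b))
    (hsmul : ∀ (c : F), c ∈ F₀ → ∀ a, p a → p (c • a))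
    (hiso : ∀ z, IsRatVec F₀ z → pullForm n q P z z = 0 → pullForm n q P z a = 0 → p z)
    {x : Fin n → F} (hx : IsRatVec F₀ x) (hxa : pullForm n q P x a = 0) : p x := by
  obtain ⟨z, y, hz, hy, za, ya, hzz, hyy, hzy, hyz⟩ := H.pair_perp_aniso ha haa
  set s := pullForm n q P x y with hs
  set t := pullForm n q P x z with ht
  have hsF : s ∈ F₀ := H.rat _ _ hx hy
  have htF : t ∈ F₀ := H.rat _ _ hx hz
  set x' := x - s • z - t • y with hx'
  have hx'r : IsRatVec F₀ x' := isRat_sub (isRat_sub hx (isRat_smul hsF hz)) (isRat_smul htF hy)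
  have a1 : pullForm n q P x' z = 0 := by
    rw [hx', sub_left H.herm, sub_left H.herm, H.herm.smul_left, H.herm.smul_left, hzz, hyz, ← ht]; ring
  have a2 : pullForm n q P x' y = 0 := by
    rw [hx', sub_left H.herm, sub_left H.herm, H.herm.smul_left, H.herm.smul_left, hzy, hyy, ← hs]; ring
  set μ := - pullForm n q P x' x' / 2 with hμ
  have hμF : μ ∈ F₀ := div_mem (neg_mem (H.rat _ _ hx'r hx'r)) H.two_mem
  have hwa : pullForm n q P (x' + z + μ • y) a = 0 := by
    simp only [hx', H.herm.add_left, sub_left H.herm, H.herm.smul_left, hxa, za, ya]; ring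
  have hw : pullForm n q P (x' + z + μ • y) (x' + z + μ • y) = 0 := by
    simp only [H.herm.add_left, add_right H.herm, H.herm.smul_left, smul_right H.herm, (H.fixed _).mpr hμF, a1, a2,
      (eq_zero_comm H.herm).mp a1, (eq_zero_comm H.herm).mp a2, hzz, hyy, hzy, hyz]
    rw [hμ]
    have := H.two
    field_simp
    ring
  have e : x = (x' + z + μ • y) + ((s - 1) • z + (t - μ) • y) := by rw [hx']; module
  rw [e]
  exact hadd _ _ (hiso _ (isRat_add (isRat_add hx'r hz) (isRat_smul hμF hy)) hw hwa)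
    (hadd _ _ (hsmul _ (sub_mem hsF (one_mem _)) _ (hiso z hz hzz za))
      (hsmul _ (sub_mem htF hμF) _ (hiso y hy hyy ya)))

/-- Rational vectors are spanned over the subfield by rational isotropic vectors. -/
theorem OrthFour.rat_span {p : (Fin n → F) → Prop} (hadd : ∀ a b, p a → p b → p (a + b))
    (hsmul : ∀ (c : F), c ∈ F₀ → ∀ a, p a → p (c • a))
    (hiso : ∀ z, IsRatVec F₀ z → pullForm n q P z z = 0 → p z) {x : Fin n → F} (hx : IsRatVec F₀ x) : p x := by
  obtain ⟨z, y, hz, hy, hzz, hyy, hzy, hyz⟩ := H.pair0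
  set s := pullForm n q P x y with hs
  set t := pullForm n q P x z with ht
  have hsF : s ∈ F₀ := H.rat _ _ hx hy
  have htF : t ∈ F₀ := H.rat _ _ hx hz
  set x' := x - s • z - t • y with hx'
  have hx'r : IsRatVec F₀ x' := isRat_sub (isRat_sub hx (isRat_smul hsF hz)) (isRat_smul htF hy)
  have a1 : pullForm n q P x' z = 0 := by
    rw [hx', sub_left H.herm, sub_left H.herm, H.herm.smul_left, H.herm.smul_left, hzz, hyz, ← ht]; ring
  have a2 : pullForm n q P x' y = 0 := by
    rw [hx', sub_left H.herm, sub_left H.herm, H.herm.smul_left, H.herm.smul_left, hzy, hyy, ← hs]; ring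
  set μ := - pullForm n q P x' x' / 2 with hμ
  have hμF : μ ∈ F₀ := div_mem (neg_mem (H.rat _ _ hx'r hx'r)) H.two_mem
  have hw : pullForm n q P (x' + z + μ • y) (x' + z + μ • y) = 0 := by
    simp only [H.herm.add_left, add_right H.herm, H.herm.smul_left, smul_right H.herm, (H.fixed _).mpr hμF, a1, a2,
      (eq_zero_comm H.herm).mp a1, (eq_zero_comm H.herm).mp a2, hzz, hyy, hzy, hyz]
    rw [hμ]
    have := H.two
    field_simp
    ring
  have e : x = (x' + z + μ • y) + ((s - 1) • z + (t - μ) • y) := by rw [hx']; module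
  rw [e]
  exact hadd _ _ (hiso _ (isRat_add (isRat_add hx'r hz) (isRat_smul hμF hy)) hw)
    (hadd _ _ (hsmul _ (sub_mem hsF (one_mem _)) _ (hiso z hz hzz)) (hsmul _ (sub_mem htF hμF) _ (hiso y hy hyy)))

variable {M : Subgroup (GL (Fin n) F)} (hle : subGroupF (Fin n) F₀ ⊓ isoSL (pullForm n q P) ≤ M)
  (hsu : M ≤ isoSL (pullForm n q P))
include hle hsu

/-- Without rational centres every Siegel element in `M` with rational centre has a rational parameter. -/
theorem OrthFour.siegel_param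
    (hno : ∀ z, IsRatVec F₀ z → pullForm n q P z z = 0 → z ≠ 0 → z ∉ centres H.herm M)
    {z : Fin n → F} (hz : IsRatVec F₀ z) (hzz : pullForm n q P z z = 0) (hz0 : z ≠ 0) {x : Fin n → F}
    (hxz : pullForm n q P x z = 0) (γ : F) (hmem : eich H.herm hzz hxz γ ∈ M) {x' : Fin n → F} (hx' : IsRatVec F₀ x')
    (hx'z : pullForm n q P x' z = 0) : pullForm n q P x x' ∈ F₀ := by
  by_contra hne
  obtain ⟨y, hy, hyy, hzy⟩ := H.partner hz hzz hz0
  have h' := hle (H.eich_rat hx' hz hzz hx'z)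
  have h1 := M.mul_mem (M.mul_mem hmem h') (M.inv_mem (M.mul_mem h' hmem))
  rw [H.eich_comm hzz hxz hx'z, mul_inv_cancel_right] at h1
  refine hno z hz hzz hz0 (H.centre_of_one hle hsu hz hzz hy hyy hzy (fun h => hne ?_) ?_ h1)
  · rw [← H.fixed, sigma_apply H.herm]; exact (sub_eq_zero.mp h).symm
  · rw [map_sub, sigma_apply H.herm, sigma_apply H.herm, neg_sub]

/-- Conjugates of Siegel elements. -/
theorem OrthFour.conj_eich {s : GL (Fin n) F} (hs : s ∈ M) {x z X Z : Fin n → F} (hzz : pullForm n q P z z = 0)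
    (hxz : pullForm n q P x z = 0) (γ : F) (hX : (s : Mat) *ᵥ x = X) (hZ : (s : Mat) *ᵥ z = Z)
    (hZZ : pullForm n q P Z Z = 0) (hXZ : pullForm n q P X Z = 0) :
    s * eich H.herm hzz hxz γ * s⁻¹ = eich H.herm hZZ hXZ γ := by
  have hiso := (mem_isoSL.mp (hsu hs)).1
  refine gl_ext fun v => ?_
  have hv : (s : Mat) *ᵥ (((s⁻¹ : GL (Fin n) F) : Mat) *ᵥ v) = v := gl_mulVec_inv s v
  have e1 : pullForm n q P v X = pullForm n q P (((s⁻¹ : GL (Fin n) F) : Mat) *ᵥ v) x := by
    rw [← hX]; conv_lhs => rw [← hv]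
    rw [hiso]
  have e2 : pullForm n q P v Z = pullForm n q P (((s⁻¹ : GL (Fin n) F) : Mat) *ᵥ v) z := by
    rw [← hZ]; conv_lhs => rw [← hv]
    rw [hiso]
  simp only [Units.val_mul, ← Matrix.mulVec_mulVec, eich_mulVec, Matrix.mulVec_add, Matrix.mulVec_sub,
    Matrix.mulVec_smul, hX, hZ, hv, e1, e2]

/-- Without rational centres no non-trivial transvection of `M` has a rational centre. -/
theorem OrthFour.no_transvection
    (hno : ∀ z, IsRatVec F₀ z → pullForm n q P z z = 0 → z ≠ 0 → z ∉ centres H.herm M)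
    {z : Fin n → F} (hz : IsRatVec F₀ z) (hzz : pullForm n q P z z = 0) (hz0 : z ≠ 0) {d : F}
    (hd : frobQ hF d = -d) (hmem : uT H.herm hzz d ∈ M) : d = 0 := by
  by_contra hd0
  obtain ⟨y, hy, hyy, hzy⟩ := H.partner hz hzz hz0
  exact hno z hz hzz hz0 (H.centre_of_one hle hsu hz hzz hy hyy hzy hd0 hd hmem)

/-- Without rational centres an element fixing a rational isotropic vector keeps its orthogonal rational. -/
theorem OrthFour.fix_iso_perp
    (hno : ∀ z, IsRatVec F₀ z → pullForm n q P z z = 0 → z ≠ 0 → z ∉ centres H.herm M)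
    {s : GL (Fin n) F} (hs : s ∈ M) {z : Fin n → F} (hz : IsRatVec F₀ z) (hzz : pullForm n q P z z = 0)
    (hz0 : z ≠ 0) (hsz : (s : Mat) *ᵥ z = z) {x : Fin n → F} (hx : IsRatVec F₀ x)
    (hxz : pullForm n q P x z = 0) : IsRatVec F₀ ((s : Mat) *ᵥ x) := by
  obtain ⟨ε, hε0, hε⟩ := exists_skew H.herm
  have hiso := (mem_isoSL.mp (hsu hs)).1
  obtain ⟨y, hy, -, hzy⟩ := H.partner hz hzz hz0
  have hyz : pullForm n q P y z = 1 := by rw [H.symm hz hy]; exact hzy
  obtain ⟨a, b, ha, hb, hab⟩ := H.decomp hε0 hε ((s : Mat) *ᵥ x)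
  have hsxz : pullForm n q P ((s : Mat) *ᵥ x) z = 0 := by
    conv_lhs => rw [← hsz]
    rw [hiso, hxz]
  have hmem : eich H.herm hzz hsxz (- pullForm n q P x x / 2) ∈ M := by
    have h1 := M.mul_mem (M.mul_mem hs (hle (H.eich_rat hx hz hzz hxz))) (M.inv_mem hs)
    rwa [H.conj_eich hle hsu hs hzz hxz _ rfl hsz hzz hsxz] at h1
  have hsplit := hsxz
  rw [hab, H.herm.add_left, H.herm.smul_left] at hsplit
  obtain ⟨haz, hbz⟩ := H.split_zero hε0 hε (H.rat _ _ ha hz) (H.rat _ _ hb hz) hsplit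
  -- the imaginary part lies on the line
  set c := pullForm n q P b y with hc
  have hcF : c ∈ F₀ := H.rat _ _ hb hy
  have hbc : b = c • z := by
    by_contra hne
    obtain ⟨w, hw, hwb⟩ := H.exists_nonorth (sub_ne_zero.mpr hne)
    set t := pullForm n q P w z with ht
    have htF : t ∈ F₀ := H.rat _ _ hw hz
    have hw' : IsRatVec F₀ (w - t • y) := isRat_sub hw (isRat_smul htF hy)
    have hw'z : pullForm n q P (w - t • y) z = 0 := by
      rw [sub_left H.herm, H.herm.smul_left, hyz, mul_one, ht, sub_self]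
    have h1 := H.siegel_param hle hsu hno hz hzz hz0 hsxz _ hmem hw' hw'z
    rw [hab, H.herm.add_left, H.herm.smul_left] at h1
    have hbr : pullForm n q P b (w - t • y) = 0 := (H.split_zero hε0 hε
      (sub_mem (H.rat _ _ ha hw') h1) (H.rat _ _ hb hw') (by ring)).2
    apply hwb
    rw [sub_right H.herm, smul_right H.herm, (H.fixed _).mpr hcF, ← ht]
    have hbw : pullForm n q P w b = t * c := by
      rw [H.symm hb hw]
      rw [sub_right H.herm, smul_right H.herm, (H.fixed _).mpr htF, ← hc] at hbr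
      linear_combination hbr
    rw [hbw, mul_comm, sub_self]
  -- the remaining transvection is trivial
  have hγ : pullForm n q P x x = pullForm n q P a a := by
    rw [← hiso x x, hab, hbc, smul_smul]
    simp only [H.herm.add_left, add_right H.herm, H.herm.smul_left, smul_right H.herm, haz,
      (eq_zero_comm H.herm).mp haz, hzz, mul_zero, add_zero]
  have h2 := H.eich_rat ha hz hzz haz
  have h3 := M.mul_mem hmem (M.inv_mem (hle h2))
  have he : eich H.herm hzz hsxz (- pullForm n q P x x / 2) =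
      uT H.herm hzz (2 * (ε * c)) * eich H.herm hzz haz (- pullForm n q P a a / 2) := by
    refine gl_ext fun v => ?_
    have hsx : (s : Mat) *ᵥ x = a + (ε * c) • z := by rw [hab, hbc, smul_smul]
    simp only [Units.val_mul, ← Matrix.mulVec_mulVec, eich_mulVec, uT_mulVec, sub_left H.herm, H.herm.add_left,
      H.herm.smul_left, hsx, add_right H.herm, smul_right H.herm, map_mul, hε, (H.fixed _).mpr hcF, hzz, haz,
      mul_zero, add_zero, sub_zero, hγ]
    module
  rw [he, mul_inv_cancel_right] at h3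
  have h4 := H.no_transvection hle hsu hno hz hzz hz0
    (by rw [map_mul, map_mul, map_ofNat, hε, (H.fixed _).mpr hcF]; ring) h3
  have hc0 : c = 0 := by
    rcases mul_eq_zero.mp h4 with h | h
    · exact absurd h H.two
    · exact (mul_eq_zero.mp h).resolve_left hε0
  rw [hab, hbc, hc0, zero_smul, smul_zero, add_zero]
  exact ha

/-- Without rational centres an element fixing a rational isotropic vector is rational. -/
theorem OrthFour.fix_iso_rat
    (hno : ∀ z, IsRatVec F₀ z → pullForm n q P z z = 0 → z ≠ 0 → z ∉ centres H.herm M)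
    {s : GL (Fin n) F} (hs : s ∈ M) {z : Fin n → F} (hz : IsRatVec F₀ z) (hzz : pullForm n q P z z = 0)
    (hz0 : z ≠ 0) (hsz : (s : Mat) *ᵥ z = z) {r : Fin n → F} (hr : IsRatVec F₀ r) :
    IsRatVec F₀ ((s : Mat) *ᵥ r) := by
  haveI : Nonempty (Fin n) := ⟨⟨0, by have := H.hn; omega⟩⟩
  obtain ⟨ε, hε0, hε⟩ := exists_skew H.herm
  have hiso := (mem_isoSL.mp (hsu hs)).1
  have hsz' : ((s⁻¹ : GL (Fin n) F) : Mat) *ᵥ z = z := by
    conv_lhs => rw [← hsz]
    exact gl_inv_mulVec s z
  obtain ⟨y, hy, hyy, hzy⟩ := H.partner hz hzz hz0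
  have hyz : pullForm n q P y z = 1 := by rw [H.symm hz hy]; exact hzy
  obtain ⟨a, b, ha, hb, hab⟩ := H.decomp hε0 hε ((s : Mat) *ᵥ y)
  have h1 : pullForm n q P ((s : Mat) *ᵥ y) z = 1 := by
    conv_lhs => rw [← hsz]
    rw [hiso, hyz]
  rw [hab, H.herm.add_left, H.herm.smul_left] at h1
  obtain ⟨haz, hbz⟩ := H.split_zero hε0 hε (sub_mem (H.rat _ _ ha hz) (one_mem _)) (H.rat _ _ hb hz)
    (by linear_combination h1)
  rw [sub_eq_zero] at haz
  set β := pullForm n q P b a with hβ
  have hβF : β ∈ F₀ := H.rat _ _ hb ha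
  have hperp : ∀ x', IsRatVec F₀ x' → pullForm n q P x' z = 0 → pullForm n q P x' b = 0 := by
    intro x' hx' hx'z
    have hinv : ((s⁻¹ : GL (Fin n) F) : Mat) *ᵥ x' = ((s⁻¹ : GL (Fin n) F) : Mat) *ᵥ x' := rfl
    have hxr := H.fix_iso_perp hle hsu hno (M.inv_mem hs) hz hzz hz0 hsz' hx' hx'z
    set x := ((s⁻¹ : GL (Fin n) F) : Mat) *ᵥ x'
    have hxx' : (s : Mat) *ᵥ x = x' := gl_mulVec_inv s x'
    have h2 : pullForm n q P x' ((s : Mat) *ᵥ y) ∈ F₀ := by
      rw [← hxx', hiso]; exact H.rat _ _ hxr hy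
    rw [hab, add_right H.herm, smul_right H.herm, hε] at h2
    exact (H.split_zero hε0 hε (sub_mem h2 (H.rat _ _ hx' ha)) (H.rat _ _ hx' hb) (by ring)).2
  have hbc : b = β • z := by
    by_contra hne
    obtain ⟨w, hw, hwb⟩ := H.exists_nonorth (sub_ne_zero.mpr hne)
    set t := pullForm n q P w z with ht
    have htF : t ∈ F₀ := H.rat _ _ hw hz
    have h2 := hperp (w - t • a) (isRat_sub hw (isRat_smul htF ha))
      (by rw [sub_left H.herm, H.herm.smul_left, haz, mul_one, ht, sub_self])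
    rw [sub_left H.herm, H.herm.smul_left, H.symm hb ha] at h2
    apply hwb
    rw [sub_right H.herm, smul_right H.herm, (H.fixed _).mpr hβF, ← ht]
    linear_combination h2
  set d := -(ε * β) with hd
  have hσd : frobQ hF d = -d := by rw [hd, map_neg, map_mul, hε, (H.fixed _).mpr hβF]; ring
  set u := uT H.herm hzz d with hu
  have hsu' : s * u ∈ isoSL (pullForm n q P) :=
    (isoSL (pullForm n q P)).mul_mem (hsu hs) ⟨fun a b => uT_iso H.herm hzz hσd a b, transGL_mem_sl _ _ _⟩
  have hrat : ∀ v, IsRatVec F₀ v → IsRatVec F₀ (((s * u : GL (Fin n) F) : Mat) *ᵥ v) := by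
    intro v hv
    set t := pullForm n q P v z with ht
    have htF : t ∈ F₀ := H.rat _ _ hv hz
    have e : v = (v - t • y) + t • y := (sub_add_cancel _ _).symm
    rw [e, Matrix.mulVec_add, Matrix.mulVec_smul]
    have hp : pullForm n q P (v - t • y) z = 0 := by
      rw [sub_left H.herm, H.herm.smul_left, hyz, mul_one, ← ht, sub_self]
    refine isRat_add ?_ (isRat_smul htF ?_)
    · rw [Units.val_mul, ← Matrix.mulVec_mulVec, hu, uT_mulVec, hp, mul_zero, zero_smul, add_zero]
      exact H.fix_iso_perp hle hsu hno hs hz hzz hz0 hsz (isRat_sub hv (isRat_smul htF hy)) hp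
    · rw [Units.val_mul, ← Matrix.mulVec_mulVec, hu, uT_mulVec, hyz, mul_one, Matrix.mulVec_add,
        Matrix.mulVec_smul, hsz, hab, hbc, hd]
      convert ha using 1
      module
  have hk : s * u ∈ subGroupF (Fin n) F₀ ⊓ isoSL (pullForm n q P) := ⟨mem_subGroupF.mpr ⟨1, one_ne_zero,
    fun i j => by
      have h := hrat _ (isRat_single j) i
      rwa [Matrix.mulVec_single_one, Matrix.col_apply, ← one_mul (((s * u : GL (Fin n) F) : Mat) i j)] at h⟩, hsu'⟩
  have huM : u ∈ M := by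
    have := M.mul_mem (M.inv_mem hs) (hle hk)
    rwa [inv_mul_cancel_left] at this
  have hd0 := H.no_transvection hle hsu hno hz hzz hz0 hσd (hu ▸ huM)
  have := hrat r hr
  rwa [hu, hd0, Units.val_mul, ← Matrix.mulVec_mulVec, uT_mulVec, zero_mul, zero_smul, add_zero] at this

end

end Cfsg.Agent.H60.SUFour
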