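import Cfsg.Agent.H60.SUFour.OrthBase
import Cfsg.Agent.H2.SU4.Move

set_option autoImplicit false
set_option linter.style.haveILetI false
set_option linter.unusedSectionVars false
set_option maxHeartbeats 1000000

/-!
# Orthogonal subfield subgroups of `SU_4`: no overgroup without rational centres

For `g` in such an overgroup and a rational isotropic `u` the plane `P` spanned by `g⁻¹u` and its
conjugate has rational image, and the conjugate of a rational rotation of `P` is then forced to be rational.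
-/

namespace Cfsg.Agent.H60.SUFour

open scoped Matrix
open Cfsg.Agent.H98 Cfsg.Agent.H98.Herm

variable {F : Type*} [Field F] [Fintype F] {q n : ℕ}

local notation "Mat" => Matrix (Fin n) (Fin n) F

/-- Determinant of a matrix fixing two vectors and acting on a complement spanned by two others. -/
theorem det_pair (hn : n = 4) {s : Mat} {e₁ e₂ r₁ r₂ : Fin n → F}
    (hli : ∀ x₁ x₂ x₃ x₄ : F, x₁ • e₁ + x₂ • e₂ + x₃ • r₁ + x₄ • r₂ = 0 →
      x₁ = 0 ∧ x₂ = 0 ∧ x₃ = 0 ∧ x₄ = 0)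
    {α b c d : F} (h₁ : s *ᵥ e₁ = α • e₁ + c • e₂) (h₂ : s *ᵥ e₂ = b • e₁ + d • e₂)
    (h₃ : s *ᵥ r₁ = r₁) (h₄ : s *ᵥ r₂ = r₂) : s.det = α * d - b * c := by
  subst hn
  set G : Matrix (Fin 4) (Fin 4) F := Matrix.of fun i j => ![e₁, e₂, r₁, r₂] j i with hG
  set D : Matrix (Fin 4) (Fin 4) F := !![α, b, 0, 0; c, d, 0, 0; 0, 0, 1, 0; 0, 0, 0, 1] with hD
  have hGv : ∀ x : Fin 4 → F, G *ᵥ x = x 0 • e₁ + x 1 • e₂ + x 2 • r₁ + x 3 • r₂ := fun x => by
    ext i
    simp [hG, Matrix.mulVec, dotProduct, Fin.sum_univ_four]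
    ring
  have hSG : s * G = G * D := by
    refine Matrix.ext_of_mulVec_single fun j => ?_
    rw [← Matrix.mulVec_mulVec, ← Matrix.mulVec_mulVec, hGv, hGv]
    simp only [Matrix.mulVec_add, Matrix.mulVec_smul, h₁, h₂, h₃, h₄, hD]
    fin_cases j <;> simp [Matrix.mulVec, dotProduct, Fin.sum_univ_four, Pi.single_apply]
  have hGdet : G.det ≠ 0 := by
    intro h0
    obtain ⟨x, hx0, hx⟩ := Matrix.exists_mulVec_eq_zero_iff.mpr h0
    rw [hGv] at hx
    obtain ⟨a1, a2, a3, a4⟩ := hli _ _ _ _ hx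
    exact hx0 (funext fun i => by fin_cases i <;> assumption)
  have hDdet : D.det = α * d - b * c := by
    rw [hD]
    simp [Matrix.det_succ_row_zero, Fin.sum_univ_succ, Fin.succAbove]
    try ring
  have := congrArg Matrix.det hSG
  rw [Matrix.det_mul, Matrix.det_mul, mul_comm] at this
  exact (mul_left_cancel₀ hGdet this).trans hDdet

section
variable {hF : Fintype.card F = q ^ 2} {F₀ : Subfield F} {P : GL (Fin n) F} (H : OrthFour hF F₀ P)
include H

local notation "Φ" => pullForm n q P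

/-- A rational scalar whose square is neither zero nor one. -/
theorem OrthFour.exists_t : ∃ t, t ∈ F₀ ∧ t ≠ 0 ∧ t * t ≠ 1 := by
  classical
  haveI := Fintype.ofFinite F₀
  have hc : Fintype.card F₀ = q := by rw [← Nat.card_eq_fintype_card]; exact H.card
  obtain ⟨x, hx⟩ : ((Finset.univ : Finset F₀) \ {0, 1, -1}).Nonempty := by
    rw [← Finset.card_pos, Finset.card_sdiff_of_subset (Finset.subset_univ _), Finset.card_univ, hc]
    have := Finset.card_le_three (a := (0 : F₀)) (b := 1) (c := -1)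
    have := H.hq
    omega
  simp only [Finset.mem_sdiff, Finset.mem_univ, true_and, Finset.mem_insert, Finset.mem_singleton, not_or] at hx
  refine ⟨x, x.2, fun h => hx.1 (Subtype.ext h), fun h => ?_⟩
  rcases mul_self_eq_one_iff.mp h with h' | h'
  · exact hx.2.1 (Subtype.ext h')
  · exact hx.2.2 (Subtype.ext (by simpa using h'))

/-- The square of a skew scalar is not a rational square. -/
theorem OrthFour.not_sq {ε : F} (hε0 : ε ≠ 0) (hε : frobQ hF ε = -ε) {x : F} (hx : x ∈ F₀) : x * x ≠ ε * ε := by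
  intro h
  have hεF : ε ∈ F₀ := by
    rcases mul_self_eq_mul_self_iff.mp h with h' | h'
    · exact h' ▸ hx
    · have := neg_mem hx
      rwa [h', neg_neg] at this
  have := (H.fixed _).mpr hεF
  rw [hε] at this
  exact hε0 ((mul_eq_zero.mp (show (2 : F) * ε = 0 by linear_combination -this)).resolve_left H.two)

/-- Conjugating coordinates conjugates the form. -/
theorem OrthFour.conj_form {ε : F} (hε0 : ε ≠ 0) (hε : frobQ hF ε = -ε) (X Y : Fin n → F) :
    Φ (fun i => frobQ hF (X i)) (fun i => frobQ hF (Y i)) = frobQ hF (Φ X Y) := by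
  obtain ⟨a, b, ha, hb, rfl⟩ := H.decomp hε0 hε X
  obtain ⟨c, d, hc, hd, rfl⟩ := H.decomp hε0 hε Y
  have e : ∀ a b : Fin n → F, IsRatVec F₀ a → IsRatVec F₀ b →
      (fun i => frobQ hF ((a + ε • b) i)) = a + (-ε) • b := fun a b ha hb => funext fun i => by
    simp only [Pi.add_apply, Pi.smul_apply, smul_eq_mul, map_add, map_mul, hε, H.sigma_rat ha i, H.sigma_rat hb i]
  rw [e a b ha hb, e c d hc hd]
  simp only [H.herm.add_left, add_right H.herm, H.herm.smul_left, smul_right H.herm, map_add, map_mul, map_neg, hε,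
    (H.fixed _).mpr (H.rat _ _ ha hc), (H.fixed _).mpr (H.rat _ _ ha hd), (H.fixed _).mpr (H.rat _ _ hb hc),
    (H.fixed _).mpr (H.rat _ _ hb hd)]

/-- A plane and two orthogonal anisotropic vectors orthogonal to it have trivial common orthogonal. -/
theorem OrthFour.frame_zero {e₁ e₂ q₁ q₂ : Fin n → F} (hD : Φ e₁ e₁ * Φ e₂ e₂ - Φ e₁ e₂ * Φ e₂ e₁ ≠ 0)
    (o11 : Φ q₁ e₁ = 0) (o12 : Φ q₁ e₂ = 0) (o21 : Φ q₂ e₁ = 0) (o22 : Φ q₂ e₂ = 0) (o : Φ q₂ q₁ = 0)
    (a₁ : Φ q₁ q₁ ≠ 0) (a₂ : Φ q₂ q₂ ≠ 0) {x : Fin n → F} (x1 : Φ x e₁ = 0) (x2 : Φ x e₂ = 0)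
    (x3 : Φ x q₁ = 0) (x4 : Φ x q₂ = 0) : x = 0 := by
  set L : (Fin n → F) →ₗ[F] (Fin 4 → F) := LinearMap.pi fun i => fl H.herm (![e₁, e₂, q₁, q₂] i) with hL
  have hsurj : Function.Surjective L := fun c => by
    obtain ⟨m, l, hm, hl⟩ : ∃ m l : F, m * Φ e₁ e₁ + l * Φ e₂ e₁ = c 0 ∧ m * Φ e₁ e₂ + l * Φ e₂ e₂ = c 1 :=
      ⟨(c 0 * Φ e₂ e₂ - c 1 * Φ e₂ e₁) / (Φ e₁ e₁ * Φ e₂ e₂ - Φ e₁ e₂ * Φ e₂ e₁),
        (Φ e₁ e₁ * c 1 - Φ e₁ e₂ * c 0) / (Φ e₁ e₁ * Φ e₂ e₂ - Φ e₁ e₂ * Φ e₂ e₁),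
        by rw [div_mul_eq_mul_div, div_mul_eq_mul_div, ← add_div, div_eq_iff hD]; ring,
        by rw [div_mul_eq_mul_div, div_mul_eq_mul_div, ← add_div, div_eq_iff hD]; ring⟩
    refine ⟨m • e₁ + l • e₂ + (c 2 / Φ q₁ q₁) • q₁ + (c 3 / Φ q₂ q₂) • q₂, funext fun i => ?_⟩
    have o' := (eq_zero_comm H.herm).mp o
    have := (eq_zero_comm H.herm).mp o11
    have := (eq_zero_comm H.herm).mp o12
    have := (eq_zero_comm H.herm).mp o21
    have := (eq_zero_comm H.herm).mp o22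
    fin_cases i <;>
      simp [hL, fl_apply, H.herm.add_left, H.herm.smul_left, *]
  have hinj : Function.Injective L :=
    (LinearMap.injective_iff_surjective_of_finrank_eq_finrank (by
      rw [Module.finrank_pi, Module.finrank_pi, Fintype.card_fin, Fintype.card_fin, H.hn])).mpr hsurj
  refine hinj ?_
  rw [map_zero]
  funext i
  fin_cases i <;> simp [hL, fl_apply, *]

/-- Vectors orthogonal to the anisotropic pair lie in the plane. -/
theorem OrthFour.in_plane {e₁ e₂ q₁ q₂ : Fin n → F} (hD : Φ e₁ e₁ * Φ e₂ e₂ - Φ e₁ e₂ * Φ e₂ e₁ ≠ 0)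
    (o11 : Φ q₁ e₁ = 0) (o12 : Φ q₁ e₂ = 0) (o21 : Φ q₂ e₁ = 0) (o22 : Φ q₂ e₂ = 0) (o : Φ q₂ q₁ = 0)
    (a₁ : Φ q₁ q₁ ≠ 0) (a₂ : Φ q₂ q₂ ≠ 0) {x : Fin n → F} (x3 : Φ x q₁ = 0) (x4 : Φ x q₂ = 0) :
    ∃ s t : F, x = s • e₁ + t • e₂ := by
  set D := Φ e₁ e₁ * Φ e₂ e₂ - Φ e₁ e₂ * Φ e₂ e₁ with hDd
  refine ⟨(Φ x e₁ * Φ e₂ e₂ - Φ x e₂ * Φ e₂ e₁) / D, (Φ e₁ e₁ * Φ x e₂ - Φ e₁ e₂ * Φ x e₁) / D,
    sub_eq_zero.mp (H.frame_zero hD o11 o12 o21 o22 o a₁ a₂ ?_ ?_ ?_ ?_)⟩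
  all_goals
    simp only [sub_left H.herm, H.herm.add_left, H.herm.smul_left, x3, x4, (eq_zero_comm H.herm).mp o11,
      (eq_zero_comm H.herm).mp o12, (eq_zero_comm H.herm).mp o21, (eq_zero_comm H.herm).mp o22, mul_zero, add_zero,
      sub_zero]
  all_goals (field_simp; rw [hDd]; ring)

/-- Vectors orthogonal to the plane lie in the span of the anisotropic pair. -/
theorem OrthFour.in_perp {e₁ e₂ q₁ q₂ : Fin n → F} (hD : Φ e₁ e₁ * Φ e₂ e₂ - Φ e₁ e₂ * Φ e₂ e₁ ≠ 0)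
    (o11 : Φ q₁ e₁ = 0) (o12 : Φ q₁ e₂ = 0) (o21 : Φ q₂ e₁ = 0) (o22 : Φ q₂ e₂ = 0) (o : Φ q₂ q₁ = 0)
    (a₁ : Φ q₁ q₁ ≠ 0) (a₂ : Φ q₂ q₂ ≠ 0) {x : Fin n → F} (x1 : Φ x e₁ = 0) (x2 : Φ x e₂ = 0) :
    ∃ s t : F, x = s • q₁ + t • q₂ := by
  refine ⟨Φ x q₁ / Φ q₁ q₁, Φ x q₂ / Φ q₂ q₂,
    sub_eq_zero.mp (H.frame_zero hD o11 o12 o21 o22 o a₁ a₂ ?_ ?_ ?_ ?_)⟩
  all_goals
    simp [sub_left H.herm, H.herm.add_left, H.herm.smul_left, x1, x2, o11, o12, o21, o22, o,
      (eq_zero_comm H.herm).mp o, div_mul_cancel₀, a₁, a₂]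

/-- The rational orthogonal of a non-degenerate rational plane has an orthogonal anisotropic basis. -/
theorem OrthFour.perp_basis {a b : Fin n → F} (ha : IsRatVec F₀ a) (hb : IsRatVec F₀ b)
    (hD : Φ a a * Φ b b - Φ a b * Φ b a ≠ 0) :
    ∃ p₁ p₂, IsRatVec F₀ p₁ ∧ IsRatVec F₀ p₂ ∧ Φ p₁ a = 0 ∧ Φ p₁ b = 0 ∧ Φ p₂ a = 0 ∧ Φ p₂ b = 0 ∧
      Φ p₂ p₁ = 0 ∧ Φ p₁ p₁ ≠ 0 ∧ Φ p₂ p₂ ≠ 0 := by
  set v : Fin 2 → Fin n → F := ![a, b] with hv
  have hvr : ∀ i, IsRatVec F₀ (v i) := fun i => by fin_cases i <;> assumption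
  have hrad : ∀ u ∈ ratPerp H v, (∀ y ∈ ratPerp H v, Φ u y = 0) → u = 0 := by
    intro u hu huy
    have hspan : u ∈ Submodule.span F (Set.range v) := by
      rw [← perp_perp H.herm (Submodule.span F (Set.range v)), mem_perpW H.herm]
      exact fun y hy => huy y ((mem_perp H.herm v y).mpr fun i =>
        (mem_perpW H.herm).mp hy _ (Submodule.subset_span ⟨i, rfl⟩))
    obtain ⟨c, hc⟩ := (Submodule.mem_span_range_iff_exists_fun F).mp hspan
    rw [Fin.sum_univ_two] at hc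
    have hu' := (mem_perp H.herm v u).mp hu
    have e1 := hu' 0
    have e2 := hu' 1
    simp [hv] at e1 e2 hc
    rw [← hc, H.herm.add_left, H.herm.smul_left, H.herm.smul_left] at e1 e2
    have c0 : c 0 = 0 := (mul_eq_zero.mp (show (Φ a a * Φ b b - Φ a b * Φ b a) * c 0 = 0 by
      linear_combination Φ b b * e1 - Φ b a * e2)).resolve_left hD
    have c1 : c 1 = 0 := (mul_eq_zero.mp (show (Φ a a * Φ b b - Φ a b * Φ b a) * c 1 = 0 by
      linear_combination Φ a a * e2 - Φ a b * e1)).resolve_left hD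
    rw [← hc, c0, c1, zero_smul, zero_smul, add_zero]
  have hdim : ∀ {k : ℕ} (w : Fin k → Fin n → F), k < 4 → ratPerp H w ≠ ⊥ := fun {k} w hk h0 => by
    have hd := finrank_perp H.herm w
    change Fintype.card (Fin n) ≤ Module.finrank F (ratPerp H w) + k at hd
    rw [h0, finrank_bot, Fintype.card_fin, H.hn] at hd
    omega
  obtain ⟨p₁, hp₁, o₁, a₁⟩ | hTI := H.aniso_or v hvr
  swap
  · exfalso
    obtain ⟨u, hu, hu0⟩ := Submodule.exists_mem_ne_zero_of_ne_bot (hdim v (by omega))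
    exact hu0 (hrad u hu fun y hy => hTI u hu y hy)
  have hp₁v : p₁ ∈ ratPerp H v := (mem_perp H.herm _ p₁).mpr o₁
  have hvr₁ : ∀ i, IsRatVec F₀ ((Fin.cons p₁ v : Fin (2 + 1) → Fin n → F) i) := fun i => Fin.cases hp₁ hvr i
  obtain ⟨p₂, hp₂, o₂, a₂⟩ | hTI := H.aniso_or (Fin.cons p₁ v) hvr₁
  swap
  · exfalso
    obtain ⟨u, hu, hu0⟩ := Submodule.exists_mem_ne_zero_of_ne_bot (hdim (Fin.cons p₁ v) (by omega))
    obtain ⟨h1, h2⟩ := H.ti_step v hp₁v a₁ hu fun y hy => hTI u hu y hy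
    exact hu0 (hrad u h1 h2)
  exact ⟨p₁, p₂, hp₁, hp₂, by simpa [hv] using o₁ 0, by simpa [hv] using o₁ 1, by simpa [hv] using o₂ (Fin.succ 0),
    by simpa [hv] using o₂ (Fin.succ 1), by simpa using o₂ 0, a₁, a₂⟩

/-- A product of two rational reflections. -/
theorem OrthFour.refl₂ {a b : Fin n → F} (ha : IsRatVec F₀ a) (hb : IsRatVec F₀ b) (haa : Φ a a ≠ 0)
    (hbb : Φ b b ≠ 0) :
    ∃ k ∈ subGroupF (Fin n) F₀ ⊓ isoSL (pullForm n q P), ∀ x, (k : Mat) *ᵥ x =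
      x + (-2 / Φ b b * Φ x b) • b + (-2 / Φ a a * Φ (x + (-2 / Φ b b * Φ x b) • b) a) • a := by
  haveI : Nonempty (Fin n) := ⟨⟨0, by have := H.hn; omega⟩⟩
  have hm2 : (-2 : F) ∈ F₀ := neg_mem H.two_mem
  have hc : ∀ r : Fin n → F, IsRatVec F₀ r → Φ r r ≠ 0 →
      -2 / Φ r r + frobQ hF (-2 / Φ r r) + -2 / Φ r r * frobQ hF (-2 / Φ r r) * Φ r r = 0 := fun r hr hrr => by
    rw [(H.fixed _).mpr (div_mem hm2 (H.rat _ _ hr hr))]
    field_simp
    ring
  obtain ⟨ga, hga, hgai, hgad⟩ := Cfsg.Agent.H2.SU4.exists_qrefl H.herm a _ (hc a ha haa)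
  obtain ⟨gb, hgb, hgbi, hgbd⟩ := Cfsg.Agent.H2.SU4.exists_qrefl H.herm b _ (hc b hb hbb)
  have hv : ∀ x, ((ga * gb : GL (Fin n) F) : Mat) *ᵥ x =
      x + (-2 / Φ b b * Φ x b) • b + (-2 / Φ a a * Φ (x + (-2 / Φ b b * Φ x b) • b) a) • a := fun x => by
    rw [Units.val_mul, ← Matrix.mulVec_mulVec, hgb, hga]
  refine ⟨ga * gb, ⟨mem_subGroupF.mpr ⟨1, one_ne_zero, fun i j => ?_⟩, mem_isoSL.mpr ⟨fun x y => ?_, ?_⟩⟩, hv⟩
  · have h := congrFun (hv (Pi.single j 1)) i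
    rw [Matrix.mulVec_single_one, Matrix.col_apply] at h
    rw [one_mul, h]
    have hx₁ := isRat_add (isRat_single j (F₀ := F₀))
      (isRat_smul (mul_mem (div_mem hm2 (H.rat _ _ hb hb)) (H.rat _ _ (isRat_single j) hb)) hb)
    exact isRat_add hx₁ (isRat_smul (mul_mem (div_mem hm2 (H.rat _ _ ha ha)) (H.rat _ _ hx₁ ha)) ha) i
  · rw [Units.val_mul, ← Matrix.mulVec_mulVec, ← Matrix.mulVec_mulVec, hgai, hgbi]
  · refine Cfsg.Agent.H2.SU4.mem_sl_of_det H.herm ?_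
    rw [Units.val_mul, Matrix.det_mul, hgad, hgbd, div_mul_cancel₀ _ haa, div_mul_cancel₀ _ hbb]
    ring

variable {M : Subgroup (GL (Fin n) F)} (hle : subGroupF (Fin n) F₀ ⊓ isoSL (pullForm n q P) ≤ M)
  (hsu : M ≤ isoSL (pullForm n q P))
  (hno : ∀ z, IsRatVec F₀ z → pullForm n q P z z = 0 → z ≠ 0 → z ∉ centres H.herm M)
include hle hsu hno

/-- An element carrying a rational isotropic vector to the line of a rational vector is in the subfield group. -/
theorem OrthFour.line_iso {g : GL (Fin n) F} (hg : g ∈ M) {z r : Fin n → F} {k : F} (hz : IsRatVec F₀ z)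
    (hzz : Φ z z = 0) (hz0 : z ≠ 0) (hr : IsRatVec F₀ r) (hgz : (g : Mat) *ᵥ z = k • r) :
    g ∈ subGroupF (Fin n) F₀ := by
  haveI : Nonempty (Fin n) := ⟨⟨0, by have := H.hn; omega⟩⟩
  obtain ⟨ε, hε0, hε⟩ := exists_skew H.herm
  have hiso := (mem_isoSL.mp (hsu hg)).1
  have hkr : k • r ≠ 0 := fun h => hz0 (gl_mulVec_injective g (by
    change (g : Mat) *ᵥ z = (g : Mat) *ᵥ 0
    rw [hgz, h, Matrix.mulVec_zero]))
  have hk : k ≠ 0 := fun h => hkr (by rw [h, zero_smul])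
  have hr0 : r ≠ 0 := fun h => hkr (by rw [h, smul_zero])
  set σk := frobQ hF k with hσk
  have hσk0 : σk ≠ 0 := (map_ne_zero (frobQ hF)).mpr hk
  have hσσ : frobQ hF σk = k := H.herm.involutive k
  have hrr : Φ r r = 0 := by
    have := hiso z z
    rw [hgz, H.herm.smul_left, smul_right H.herm, hzz] at this
    simpa [hk, hσk0] using this
  obtain ⟨r', hr', -, hrr'⟩ := H.partner hr hrr hr0
  have hr'r : Φ r' r = 1 := by rw [H.symm hr hr']; exact hrr'
  have hgzz : Φ (k • r) (k • r) = 0 := by rw [H.herm.smul_left, smul_right H.herm, hrr, mul_zero, mul_zero]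
  have hN : k * σk ∈ F₀ := (H.fixed _).mp (by rw [map_mul, hσσ]; ring)
  -- the orthogonal of `z` goes into a multiple of the rationals
  have hX : ∀ x, IsRatVec F₀ x → Φ x z = 0 → IsRatVec F₀ (σk • (g : Mat) *ᵥ x) := by
    intro x hx hxz
    set γ := - Φ x x / 2 with hγ
    have hγF : γ ∈ F₀ := div_mem (neg_mem (H.rat _ _ hx hx)) H.two_mem
    have hgxz : Φ ((g : Mat) *ᵥ x) (k • r) = 0 := by rw [← hgz, hiso, hxz]
    have hT := M.mul_mem (M.mul_mem hg (hle (H.eich_rat hx hz hzz hxz))) (M.inv_mem hg)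
    rw [H.conj_eich hle hsu hg hzz hxz _ rfl hgz hgzz hgxz] at hT
    have hgxr : Φ ((g : Mat) *ᵥ x) r = 0 := by
      have h := hgxz
      rw [smul_right H.herm] at h
      exact (mul_eq_zero.mp h).resolve_left hσk0
    have hTr : (eich H.herm hgzz hgxz γ : Mat) *ᵥ r = r := by
      rw [eich_mulVec, (eq_zero_comm H.herm).mp hgxr, smul_right H.herm, hrr, mul_zero, zero_smul, zero_smul,
        sub_zero, add_zero]
    set X := σk • (g : Mat) *ᵥ x with hXd
    obtain ⟨a, b, ha, hb, hab⟩ := H.decomp hε0 hε X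
    have h1 := isRat_sub (H.fix_iso_rat hle hsu hno hT hr hrr hr0 hTr hr') hr'
    have e : (eich H.herm hgzz hgxz γ : Mat) *ᵥ r' - r' = X + (γ * (k * σk) - Φ r' X) • r := by
      rw [eich_mulVec, smul_right H.herm, hr'r, hXd, smul_right H.herm, hσσ]
      module
    rw [e, hab] at h1
    set e₀ := γ * (k * σk) - Φ r' (a + ε • b) with he₀
    have h2 : (e₀ - frobQ hF e₀) • r + (2 * ε) • b = 0 := funext fun i => by
      have := (H.fixed _).mpr (h1 i)
      simp only [Pi.add_apply, Pi.smul_apply, smul_eq_mul, map_add, map_mul, hε, H.sigma_rat ha i, H.sigma_rat hb i,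
        H.sigma_rat hr i] at this
      simp only [Pi.add_apply, Pi.smul_apply, smul_eq_mul, Pi.zero_apply]
      linear_combination -this
    have h3 : e₀ - frobQ hF e₀ = 2 * ε * Φ r' b := by
      rw [he₀]
      simp only [add_right H.herm, smul_right H.herm, hε, map_sub, map_add, map_mul, map_neg,
        (H.fixed _).mpr hγF, hσσ, ← hσk, (H.fixed _).mpr (H.rat _ _ hr' ha), (H.fixed _).mpr (H.rat _ _ hr' hb)]
      ring
    have h4 := congrArg (fun w => Φ w r') h2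
    simp only [H.herm.add_left, H.herm.smul_left, zero_left H.herm, hrr', h3, H.symm hr' hb] at h4
    have h5 : Φ r' b = 0 := (mul_eq_zero.mp (show (2 * (2 * ε)) * Φ r' b = 0 by
      linear_combination h4)).resolve_left (mul_ne_zero H.two (mul_ne_zero H.two hε0))
    rw [h3, h5, mul_zero, zero_smul, zero_add] at h2
    rw [hab, (smul_eq_zero.mp h2).resolve_left (mul_ne_zero H.two hε0), smul_zero, add_zero]
    exact ha
  -- the partner of `z`
  obtain ⟨y, hy, hyy, hzy⟩ := H.partner hz hzz hz0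
  have hyz : Φ y z = 1 := by rw [H.symm hz hy]; exact hzy
  set Y := σk • (g : Mat) *ᵥ y with hYd
  obtain ⟨a, b, ha, hb, hab⟩ := H.decomp hε0 hε Y
  have hYr : Φ Y r = 1 := by
    rw [hYd, H.herm.smul_left]
    have := hiso y z
    rw [hgz, hyz, smul_right H.herm] at this
    exact this
  have hbr : Φ b r = 0 := by
    have h := hYr
    rw [hab, H.herm.add_left, H.herm.smul_left] at h
    exact (H.split_zero hε0 hε (sub_mem (H.rat _ _ ha hr) (one_mem _)) (H.rat _ _ hb hr)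
      (by linear_combination h)).2
  have hbX : ∀ x, IsRatVec F₀ x → Φ x z = 0 → Φ (σk • (g : Mat) *ᵥ x) b = 0 := by
    intro x hx hxz
    have h : Φ (σk • (g : Mat) *ᵥ x) Y ∈ F₀ := by
      rw [hYd, H.herm.smul_left, smul_right H.herm, hσσ, hiso, ← mul_assoc, mul_comm σk]
      exact mul_mem hN (H.rat _ _ hx hy)
    rw [hab, add_right H.herm, smul_right H.herm, hε] at h
    exact (H.split_zero hε0 hε (sub_mem h (H.rat _ _ (hX x hx hxz) ha)) (H.rat _ _ (hX x hx hxz) hb) (by ring)).2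
  set v := ((g⁻¹ : GL (Fin n) F) : Mat) *ᵥ b with hv
  have hvx : ∀ x, IsRatVec F₀ x → Φ x z = 0 → Φ x v = 0 := by
    intro x hx hxz
    have h := hbX x hx hxz
    rw [H.herm.smul_left, ← gl_mulVec_inv g b, hiso] at h
    exact (mul_eq_zero.mp h).resolve_left hσk0
  set c := frobQ hF (Φ y v) with hc
  have hvz : v = c • z := by
    by_contra hne
    obtain ⟨w, hw, hwv⟩ := H.exists_nonorth (sub_ne_zero.mpr hne)
    apply hwv
    have h := hvx (w - Φ w z • y) (isRat_sub hw (isRat_smul (H.rat _ _ hw hz) hy))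
      (by rw [sub_left H.herm, H.herm.smul_left, hyz, mul_one, sub_self])
    rw [sub_left H.herm, H.herm.smul_left] at h
    rw [sub_right H.herm, smul_right H.herm, hc, H.herm.involutive]
    linear_combination h
  have hbr' : b = (c * k) • r := by
    rw [← gl_mulVec_inv g b, ← hv, hvz, Matrix.mulVec_smul, hgz, smul_smul]
  have hce : c * k ∈ F₀ := by
    obtain ⟨i, hi⟩ := Function.ne_iff.mp hr0
    have h := mul_mem (hb i) (inv_mem (hr i))
    rwa [hbr', Pi.smul_apply, smul_eq_mul, mul_assoc, mul_inv_cancel₀ hi, mul_one] at h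
  set d := -(ε * (c * k)) / (k * σk) with hd
  have hσd : frobQ hF d = -d := by
    rw [hd, map_div₀, map_neg, map_mul (frobQ hF) ε, hε, (H.fixed _).mpr hce, (H.fixed _).mpr hN]
    ring
  set u := uT H.herm hzz d with hu
  have hgu : g * u ∈ isoSL (pullForm n q P) :=
    (isoSL (pullForm n q P)).mul_mem (hsu hg) ⟨fun a b => uT_iso H.herm hzz hσd a b, transGL_mem_sl _ _ _⟩
  have hrat : ∀ w, IsRatVec F₀ w → IsRatVec F₀ (σk • ((g * u : GL (Fin n) F) : Mat) *ᵥ w) := by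
    intro w hw
    set t := Φ w z with ht
    have htF : t ∈ F₀ := H.rat _ _ hw hz
    have e : w = (w - t • y) + t • y := (sub_add_cancel _ _).symm
    rw [e, Matrix.mulVec_add, Matrix.mulVec_smul, smul_add, smul_comm σk t]
    have hp : Φ (w - t • y) z = 0 := by rw [sub_left H.herm, H.herm.smul_left, hyz, mul_one, ← ht, sub_self]
    refine isRat_add ?_ (isRat_smul htF ?_)
    · rw [Units.val_mul, ← Matrix.mulVec_mulVec, hu, uT_mulVec, hp, mul_zero, zero_smul, add_zero]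
      exact hX _ (isRat_sub hw (isRat_smul htF hy)) hp
    · rw [Units.val_mul, ← Matrix.mulVec_mulVec, hu, uT_mulVec, hyz, mul_one, Matrix.mulVec_add,
        Matrix.mulVec_smul, hgz, smul_add, ← hYd, hab, hbr', smul_smul, smul_smul, smul_smul]
      convert ha using 1
      rw [hd]
      match_scalars <;> field_simp <;> ring
  have hk' : g * u ∈ subGroupF (Fin n) F₀ ⊓ isoSL (pullForm n q P) := ⟨mem_subGroupF.mpr ⟨σk, hσk0, fun i j => by
      have h := hrat _ (isRat_single j) i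
      rwa [Pi.smul_apply, Matrix.mulVec_single_one, Matrix.col_apply, smul_eq_mul] at h⟩, hgu⟩
  have huM : u ∈ M := by
    have := M.mul_mem (M.inv_mem hg) (hle hk')
    rwa [inv_mul_cancel_left] at this
  have hd0 := H.no_transvection hle hsu hno hz hzz hz0 hσd (hu ▸ huM)
  have hu1 : u = 1 := gl_ext fun w => by rw [hu, uT_mulVec, hd0]; simp
  have := hk'.1
  rwa [hu1, mul_one] at this

/-- The rational image of the plane of `g⁻¹u`. -/
theorem OrthFour.stable {g : GL (Fin n) F} (hg : g ∈ M) {u a b : Fin n → F} {ε : F} (hu : IsRatVec F₀ u)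
    (huu : Φ u u = 0) (hu0 : u ≠ 0) (ha : IsRatVec F₀ a) (hb : IsRatVec F₀ b)
    (hab : ((g⁻¹ : GL (Fin n) F) : Mat) *ᵥ u = a + ε • b) (hD : Φ a a * Φ b b - Φ a b * Φ b a ≠ 0) :
    ∃ (p₁ p₂ : Fin n → F) (s₀ : GL (Fin n) F),
      (Φ p₁ a = 0 ∧ Φ p₁ b = 0 ∧ Φ p₂ a = 0 ∧ Φ p₂ b = 0 ∧ Φ p₂ p₁ = 0 ∧ Φ p₁ p₁ ≠ 0 ∧ Φ p₂ p₂ ≠ 0) ∧
      (∀ i j, (s₀ : Mat) i j ∈ F₀) ∧
      (∀ y, (s₀ : Mat) *ᵥ y = y ↔
        Φ (((g⁻¹ : GL (Fin n) F) : Mat) *ᵥ y) p₁ = 0 ∧ Φ (((g⁻¹ : GL (Fin n) F) : Mat) *ᵥ y) p₂ = 0) ∧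
      ∃ u', IsRatVec F₀ u' ∧ (s₀ : Mat) *ᵥ u' = u' ∧ Φ u' u' = 0 ∧ Φ u u' = 1 ∧ (s₀ : Mat) *ᵥ u = u := by
  haveI : Nonempty (Fin n) := ⟨⟨0, by have := H.hn; omega⟩⟩
  obtain ⟨p₁, p₂, hp₁, hp₂, o1a, o1b, o2a, o2b, o21, a₁, a₂⟩ := H.perp_basis ha hb hD
  obtain ⟨j, hj, hjv⟩ := H.refl₂ hp₁ hp₂ a₁ a₂
  have o12 := (eq_zero_comm H.herm).mp o21
  have h2 := H.two
  have hjx : ∀ x, (j : Mat) *ᵥ x = x + (-2 / Φ p₂ p₂ * Φ x p₂) • p₂ + (-2 / Φ p₁ p₁ * Φ x p₁) • p₁ := fun x => by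
    rw [hjv, H.herm.add_left, H.herm.smul_left, o21, mul_zero, add_zero]
  have hjfix : ∀ x, (j : Mat) *ᵥ x = x ↔ Φ x p₁ = 0 ∧ Φ x p₂ = 0 := fun x => by
    rw [hjx]
    refine ⟨fun h => ?_, fun ⟨h1, h3⟩ => by rw [h1, h3]; simp⟩
    have e1 := congrArg (fun w => Φ w p₁) h
    have e2 := congrArg (fun w => Φ w p₂) h
    simp only [H.herm.add_left, H.herm.smul_left, o21, o12, mul_zero, add_zero] at e1 e2
    rw [add_eq_left, mul_eq_zero] at e1 e2
    exact ⟨(mul_eq_zero.mp (e1.resolve_right a₁)).resolve_left (div_ne_zero (neg_ne_zero.mpr h2) a₁),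
      (mul_eq_zero.mp (e2.resolve_right a₂)).resolve_left (div_ne_zero (neg_ne_zero.mpr h2) a₂)⟩
  have hjj : ∀ x, (j : Mat) *ᵥ ((j : Mat) *ᵥ x) = x := fun x => by
    simp only [hjx, H.herm.add_left, H.herm.smul_left, o21, o12]
    match_scalars <;> field_simp <;> ring
  set s₀ := g * j * g⁻¹ with hs₀
  have hs₀M : s₀ ∈ M := M.mul_mem (M.mul_mem hg (hle hj)) (M.inv_mem hg)
  have hs₀v : ∀ x, (s₀ : Mat) *ᵥ x = (g : Mat) *ᵥ ((j : Mat) *ᵥ (((g⁻¹ : GL (Fin n) F) : Mat) *ᵥ x)) := fun x => by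
    rw [hs₀]; simp only [Units.val_mul, ← Matrix.mulVec_mulVec]
  have hfix : ∀ y, (s₀ : Mat) *ᵥ y = y ↔
      Φ (((g⁻¹ : GL (Fin n) F) : Mat) *ᵥ y) p₁ = 0 ∧ Φ (((g⁻¹ : GL (Fin n) F) : Mat) *ᵥ y) p₂ = 0 := fun y => by
    rw [← hjfix, hs₀v]
    refine ⟨fun h => ?_, fun h => by rw [h, gl_mulVec_inv]⟩
    refine gl_mulVec_injective g ?_
    change (g : Mat) *ᵥ _ = (g : Mat) *ᵥ _
    rw [h, gl_mulVec_inv]
  have hs₀u : (s₀ : Mat) *ᵥ u = u := (hfix u).mpr
    ⟨by rw [hab, H.herm.add_left, H.herm.smul_left, (eq_zero_comm H.herm).mp o1a, (eq_zero_comm H.herm).mp o1b]; ring,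
     by rw [hab, H.herm.add_left, H.herm.smul_left, (eq_zero_comm H.herm).mp o2a, (eq_zero_comm H.herm).mp o2b]; ring⟩
  have hrs : ∀ i j, (s₀ : Mat) i j ∈ F₀ := fun i j => by
    have h := H.fix_iso_rat hle hsu hno hs₀M hu huu hu0 hs₀u (isRat_single j) i
    rwa [Matrix.mulVec_single_one, Matrix.col_apply] at h
  obtain ⟨y, hy, -, huy⟩ := H.partner hu huu hu0
  obtain ⟨w, hw⟩ : ∃ w, w = (1 / 2 : F) • (y + (s₀ : Mat) *ᵥ y) := ⟨_, rfl⟩
  have hwr : IsRatVec F₀ w :=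
    hw ▸ isRat_smul (div_mem (one_mem _) H.two_mem) (isRat_add hy (mulVec_rat hrs hy))
  have hws : (s₀ : Mat) *ᵥ w = w := by
    have : (s₀ : Mat) *ᵥ ((s₀ : Mat) *ᵥ y) = y := by rw [hs₀v, hs₀v y, gl_inv_mulVec, hjj, gl_mulVec_inv]
    rw [hw, Matrix.mulVec_smul, Matrix.mulVec_add, this, add_comm]
  have huw : Φ u w = 1 := by
    have h : Φ u ((s₀ : Mat) *ᵥ y) = 1 := by
      conv_lhs => rw [← hs₀u]
      rw [(mem_isoSL.mp (hsu hs₀M)).1, huy]
    rw [hw, smul_right H.herm, add_right H.herm, huy, h, map_div₀, map_one, map_ofNat]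
    field_simp
    ring
  set μ := - Φ w w / 2 with hμ
  have hμF : μ ∈ F₀ := div_mem (neg_mem (H.rat _ _ hwr hwr)) H.two_mem
  have hwu : Φ w u = 1 := by rw [H.symm hu hwr]; exact huw
  refine ⟨p₁, p₂, s₀, ⟨o1a, o1b, o2a, o2b, o21, a₁, a₂⟩, hrs, hfix, w + μ • u, isRat_add hwr (isRat_smul hμF hu),
    by rw [Matrix.mulVec_add, Matrix.mulVec_smul, hws, hs₀u], ?_, ?_, hs₀u⟩
  · simp only [H.herm.add_left, add_right H.herm, H.herm.smul_left, smul_right H.herm, (H.fixed _).mpr hμF, hwu, huw,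
      huu]
    rw [hμ]
    field_simp
    ring
  · rw [add_right H.herm, smul_right H.herm, huw, huu, mul_zero, add_zero]

/-- An element of `M` supported on a rational hyperbolic plane preserves each isotropic line up to swapping. -/
theorem OrthFour.su_plane {s : GL (Fin n) F} (hs : s ∈ M) {u u' r₁ r₂ : Fin n → F} (hu : IsRatVec F₀ u)
    (hu' : IsRatVec F₀ u') (huu : Φ u u = 0) (hu'u' : Φ u' u' = 0) (huu' : Φ u u' = 1)
    (hr₁ : IsRatVec F₀ r₁) (hr₂ : IsRatVec F₀ r₂) (o1u : Φ r₁ u = 0) (o1u' : Φ r₁ u' = 0) (o2u : Φ r₂ u = 0)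
    (o2u' : Φ r₂ u' = 0) (o21 : Φ r₂ r₁ = 0) (a₁ : Φ r₁ r₁ ≠ 0) (a₂ : Φ r₂ r₂ ≠ 0)
    (hs1 : (s : Mat) *ᵥ r₁ = r₁) (hs2 : (s : Mat) *ᵥ r₂ = r₂) {α b c d : F}
    (hsu₁ : (s : Mat) *ᵥ u = α • u + c • u') (hsu₂ : (s : Mat) *ᵥ u' = b • u + d • u')
    (hdet : α * d - b * c = 1) : s ∈ subGroupF (Fin n) F₀ := by
  by_contra hns
  obtain ⟨ε, hε0, hε⟩ := exists_skew H.herm
  have hiso := (mem_isoSL.mp (hsu hs)).1
  have hu'u : Φ u' u = 1 := by rw [H.symm hu hu']; exact huu'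
  have hu0 : u ≠ 0 := fun h => by rw [h, zero_left H.herm] at huu'; exact zero_ne_one huu'
  have hu'0 : u' ≠ 0 := fun h => by rw [h, zero_left H.herm] at hu'u; exact zero_ne_one hu'u
  have hc : c ≠ 0 := fun h => hns (H.line_iso hle hsu hno hs hu huu hu0 hu
    (k := α) (by rw [hsu₁, h, zero_smul, add_zero]))
  have hb : b ≠ 0 := fun h => hns (H.line_iso hle hsu hno hs hu' hu'u' hu'0 hu'
    (k := d) (by rw [hsu₂, h, zero_smul, zero_add]))
  have hα : α ≠ 0 := fun h => hns (H.line_iso hle hsu hno hs hu huu hu0 hu'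
    (k := c) (by rw [hsu₁, h, zero_smul, zero_add]))
  have E1 := hiso u u
  have E2 := hiso u' u'
  have E3 := hiso u u'
  simp only [hsu₁, hsu₂, H.herm.add_left, add_right H.herm, H.herm.smul_left, smul_right H.herm, huu, hu'u', huu',
    hu'u, mul_zero, mul_one, add_zero, zero_add] at E1 E2 E3
  set σ := frobQ hF with hσ
  have E3' : σ α * d + σ c * b = 1 := by
    have := congrArg σ E3
    rw [map_add, map_mul, map_mul, map_one, H.herm.involutive, H.herm.involutive] at this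
    exact this
  have hσc : σ c = -c := by linear_combination -(c * E3' - d * E1 + σ c * hdet)
  have hσα : σ α = α := by
    have h : c * (σ α - α) = 0 := by linear_combination E1 - α * hσc
    exact sub_eq_zero.mp ((mul_eq_zero.mp h).resolve_left hc)
  have hσb : σ b = -b := by linear_combination -(b * E3 - α * E2 + σ b * hdet)
  have hσd : σ d = d := by
    have h : b * (σ d - d) = 0 := by linear_combination E2 - d * hσb
    exact sub_eq_zero.mp ((mul_eq_zero.mp h).resolve_left hb)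
  have hαF : α ∈ F₀ := (H.fixed _).mp hσα
  have hdF : d ∈ F₀ := (H.fixed _).mp hσd
  have hbε : b / ε ∈ F₀ := (H.fixed _).mp (by rw [map_div₀, ← hσ, hσb, hε, neg_div_neg_eq])
  have hcε : c / ε ∈ F₀ := (H.fixed _).mp (by rw [map_div₀, ← hσ, hσc, hε, neg_div_neg_eq])
  -- one isotropic vector for each non-zero product
  have key : ∀ t, t ∈ F₀ → t ≠ 0 → d * b * (t * t) = α * c := by
    intro t ht ht0
    obtain ⟨m₁, m₂, hm₁, hm₂, hm⟩ := H.solve hr₁ hr₂ a₁ a₂ (g := 2 * t) (mul_mem H.two_mem ht)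
    set r := m₁ • r₁ + m₂ • r₂ with hr
    have hrr : IsRatVec F₀ r := isRat_add (isRat_smul hm₁ hr₁) (isRat_smul hm₂ hr₂)
    have o12 := (eq_zero_comm H.herm).mp o21
    have hru : Φ r u = 0 := by rw [hr, H.herm.add_left, H.herm.smul_left, H.herm.smul_left, o1u, o2u]; ring
    have hru' : Φ r u' = 0 := by rw [hr, H.herm.add_left, H.herm.smul_left, H.herm.smul_left, o1u', o2u']; ring
    have hQr : Φ r r = -(2 * t) := by
      simp only [hr, H.herm.add_left, add_right H.herm, H.herm.smul_left, smul_right H.herm, (H.fixed _).mpr hm₁,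
        (H.fixed _).mpr hm₂, o12, o21]
      linear_combination hm
    have hsr : (s : Mat) *ᵥ r = r := by rw [hr, Matrix.mulVec_add, Matrix.mulVec_smul, Matrix.mulVec_smul, hs1, hs2]
    set z := u + t • u' + r with hz
    have hzr : IsRatVec F₀ z := isRat_add (isRat_add hu (isRat_smul ht hu')) hrr
    have hσt : σ t = t := (H.fixed _).mpr ht
    have hur := (eq_zero_comm H.herm).mp hru
    have hu'r := (eq_zero_comm H.herm).mp hru'
    have hzz : Φ z z = 0 := by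
      simp only [hz, H.herm.add_left, add_right H.herm, H.herm.smul_left, smul_right H.herm, ← hσ, hσt, huu, hu'u',
        huu', hu'u, hru, hru', hur, hu'r, hQr]
      ring
    have hz0 : z ≠ 0 := fun h => by
      have := congrArg (fun w => Φ w u') h
      simp only [hz, H.herm.add_left, H.herm.smul_left, huu', hu'u', hru', mul_zero, add_zero,
        zero_left H.herm] at this
      exact one_ne_zero this
    set A := (α • u + (d * t) • u') + r with hA
    set B := (b / ε * t) • u + (c / ε) • u' with hB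
    have hAr : IsRatVec F₀ A := isRat_add (isRat_add (isRat_smul hαF hu) (isRat_smul (mul_mem hdF ht) hu')) hrr
    have hBr : IsRatVec F₀ B := isRat_add (isRat_smul (mul_mem hbε ht) hu) (isRat_smul hcε hu')
    have hsz : ((s⁻¹⁻¹ : GL (Fin n) F) : Mat) *ᵥ z = A + ε • B := by
      rw [inv_inv, hz, Matrix.mulVec_add, Matrix.mulVec_add, Matrix.mulVec_smul, hsu₁, hsu₂, hsr, hA, hB]
      match_scalars <;> field_simp <;> ring
    have hBB : Φ B B = 2 * (b / ε * t) * (c / ε) := by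
      simp only [hB, H.herm.add_left, add_right H.herm, H.herm.smul_left, smul_right H.herm,
        (H.fixed _).mpr (mul_mem hbε ht), (H.fixed _).mpr hcε, huu, hu'u', huu', hu'u]
      ring
    have hBB0 : Φ B B ≠ 0 := by
      rw [hBB]
      exact mul_ne_zero (mul_ne_zero H.two (mul_ne_zero (div_ne_zero hb hε0) ht0)) (div_ne_zero hc hε0)
    have hD : Φ A A * Φ B B - Φ A B * Φ B A ≠ 0 := by
      intro h0
      have h : Φ (A + ε • B) (A + ε • B) = 0 := by rw [← hsz, inv_inv, hiso, hzz]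
      rw [H.symm hAr hBr] at h0
      simp only [H.herm.add_left, add_right H.herm, H.herm.smul_left, smul_right H.herm, ← hσ, hε, H.symm hAr hBr] at h
      refine H.not_sq hε0 hε (div_mem (H.rat _ _ hAr hBr) (H.rat _ _ hBr hBr)) ?_
      rw [div_mul_div_comm, div_eq_iff (mul_ne_zero hBB0 hBB0)]
      linear_combination Φ B B * h - h0
    obtain ⟨p₁, p₂, s₀, ⟨o1A, o1B, o2A, o2B, op21, pa₁, pa₂⟩, hrs, hfix, -, -, -, -, -, -⟩ :=
      H.stable hle hsu hno (M.inv_mem hs) hzr hzz hz0 hAr hBr hsz hD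
    -- the preimage `X` of `ε • B`
    set x := d * b * t - b * c with hx
    set y := -(c * b * t) + α * c with hy
    set X := x • u + y • u' with hX
    have hsX : (s : Mat) *ᵥ X = ε • B := by
      rw [hX, Matrix.mulVec_add, Matrix.mulVec_smul, Matrix.mulVec_smul, hsu₁, hsu₂, hB, hx, hy]
      match_scalars
      · linear_combination (b * t) * hdet - (b * t) * mul_inv_cancel₀ hε0
      · linear_combination c * hdet - c * mul_inv_cancel₀ hε0
    set Xc := σ x • u + σ y • u' with hXc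
    have hcon : (fun i => σ (X i)) = Xc := funext fun i => by
      simp only [hX, hXc, Pi.add_apply, Pi.smul_apply, smul_eq_mul, map_add, map_mul]
      rw [H.sigma_rat hu i, H.sigma_rat hu' i]
    have hX₀ : (s₀ : Mat) *ᵥ X = X := (hfix X).mpr (by
      rw [inv_inv, hsX]
      constructor <;> rw [H.herm.smul_left]
      · rw [(eq_zero_comm H.herm).mp o1B, mul_zero]
      · rw [(eq_zero_comm H.herm).mp o2B, mul_zero])
    have hXc₀ : (s₀ : Mat) *ᵥ Xc = Xc := by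
      rw [← hcon]
      funext i
      conv_rhs => rw [← hX₀]
      simp only [Matrix.mulVec, dotProduct, map_sum, map_mul]
      exact Finset.sum_congr rfl fun j _ => by rw [hσ, (H.fixed _).mpr (hrs i j)]
    obtain ⟨m, l, hml⟩ := H.in_plane hD o1A o1B o2A o2B op21 pa₁ pa₂
      (by simpa using ((hfix Xc).mp hXc₀).1) (by simpa using ((hfix Xc).mp hXc₀).2)
    -- `Xc` is a combination of `z` and `X`, hence of `X`
    have hcomb : Xc = m • z + (l / ε - m) • X := by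
      refine gl_mulVec_injective s ?_
      change (s : Mat) *ᵥ Xc = (s : Mat) *ᵥ _
      rw [inv_inv] at hsz
      rw [hml, Matrix.mulVec_add, Matrix.mulVec_smul, Matrix.mulVec_smul, hsz, hsX]
      match_scalars <;> field_simp <;> ring
    have hm0 : m = 0 := by
      have := congrArg (fun w => Φ w r) hcomb
      simp only [hXc, hz, hX, H.herm.add_left, H.herm.smul_left, hur, hu'r, hQr, mul_zero, add_zero, zero_add] at this
      have h : m * (2 * t) = 0 := by linear_combination this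
      exact (mul_eq_zero.mp h).resolve_right (mul_ne_zero H.two ht0)
    rw [hm0, zero_smul, zero_add, sub_zero] at hcomb
    have h1 := congrArg (fun w => Φ w u') hcomb
    have h3 := congrArg (fun w => Φ w u) hcomb
    simp only [hXc, hX, H.herm.add_left, H.herm.smul_left, huu, hu'u', huu', hu'u, mul_zero, mul_one, add_zero,
      zero_add] at h1 h3
    have hcross : σ x * y = x * σ y := by rw [h1, h3]; ring
    simp only [hx, hy, map_sub, map_add, map_neg, map_mul, hσb, hσc, hσα, hσd, hσt] at hcross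
    have : (2 * (b * c)) * (d * b * (t * t) - α * c) = 0 := by linear_combination hcross
    exact sub_eq_zero.mp ((mul_eq_zero.mp this).resolve_left (mul_ne_zero H.two (mul_ne_zero hb hc)))
  obtain ⟨t₀, ht₀, ht00, ht1⟩ := H.exists_t
  have k1 := key 1 (one_mem _) one_ne_zero
  have k2 := key t₀ ht₀ ht00
  have hdb : (d * b) * (t₀ * t₀ - 1) = 0 := by linear_combination k2 - k1
  have hd0 : d = 0 :=
    (mul_eq_zero.mp ((mul_eq_zero.mp hdb).resolve_right (sub_ne_zero.mpr ht1))).resolve_right hb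
  rw [hd0, zero_mul, zero_mul] at k1
  exact mul_ne_zero hα hc k1.symm

/-- Some rational isotropic vector has a non-degenerate plane. -/
theorem OrthFour.exists_good {g : GL (Fin n) F} (hg : g ∈ M) (hgn : g ∉ subGroupF (Fin n) F₀) :
    ∃ u, IsRatVec F₀ u ∧ Φ u u = 0 ∧
      Φ (((g⁻¹ : GL (Fin n) F) : Mat) *ᵥ u) (fun i => frobQ hF ((((g⁻¹ : GL (Fin n) F) : Mat) *ᵥ u) i)) ≠ 0 := by
  by_contra hall
  push Not at hall
  obtain ⟨ε, hε0, hε⟩ := exists_skew H.herm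
  set G := ((g⁻¹ : GL (Fin n) F) : Mat) with hG
  have hGiso : ∀ x y, Φ (G *ᵥ x) (G *ᵥ y) = Φ x y := (mem_isoSL.mp (hsu (M.inv_mem hg))).1
  set K : (Fin n → F) → (Fin n → F) → F := fun x y => Φ (G *ᵥ x) (fun i => frobQ hF ((G *ᵥ y) i)) with hK
  have hbar : ∀ (x y : Fin n → F) (c : F), (fun i => frobQ hF ((G *ᵥ (x + c • y)) i)) =
      (fun i => frobQ hF ((G *ᵥ x) i)) + frobQ hF c • fun i => frobQ hF ((G *ᵥ y) i) := fun x y c => funext fun i => by
    simp [Matrix.mulVec_add, Matrix.mulVec_smul]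
  have Kl : ∀ x y w (c : F), K (x + c • y) w = K x w + c * K y w := fun x y w c => by
    simp [hK, Matrix.mulVec_add, Matrix.mulVec_smul, H.herm.add_left, H.herm.smul_left]
  have Kr : ∀ x y w (c : F), K w (x + c • y) = K w x + c * K w y := fun x y w c => by
    simp only [hK, hbar, add_right H.herm, smul_right H.herm, H.herm.involutive]
  have Ks : ∀ x y, K x y = K y x := fun x y => by
    have h := H.conj_form hε0 hε (fun i => frobQ hF ((G *ᵥ y) i)) (G *ᵥ x)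
    simp only [H.herm.involutive, sigma_apply H.herm] at h
    exact h.symm
  obtain ⟨z, y, hz, hy, hzz, hyy, hzy, hyz⟩ := H.pair0
  have hz0 : z ≠ 0 := fun h => by rw [h, zero_left H.herm] at hzy; exact zero_ne_one hzy
  obtain ⟨p₁, p₂, hp₁, hp₂, o1z, o1y, o2z, o2y, o21, a₁, a₂⟩ :=
    H.perp_basis hz hy (by rw [hzz, hyy, hzy, hyz]; norm_num)
  obtain ⟨t₀, ht₀, ht00, ht1⟩ := H.exists_t
  have hKzz : K z z = 0 := hall z hz hzz
  have hKyy : K y y = 0 := hall y hy hyy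
  have hKp : ∀ p, IsRatVec F₀ p → Φ p z = 0 → Φ p y = 0 → Φ p p ≠ 0 → K p z = 0 := by
    intro p hp hpz hpy hpp
    set μ := - Φ p p / 2 with hμ
    have hμF : μ ∈ F₀ := div_mem (neg_mem (H.rat _ _ hp hp)) H.two_mem
    have hμ0 : μ ≠ 0 := div_ne_zero (neg_ne_zero.mpr hpp) H.two
    have ident : ∀ t, t ∈ F₀ → t * t * K p p + 2 * t * K p z + 2 * (t * t * t) * μ * K p y +
        2 * μ * (t * t) * K z y = 0 := by
      intro t ht
      have hw : Φ (z + t • p + (μ * (t * t)) • y) (z + t • p + (μ * (t * t)) • y) = 0 := by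
        simp only [H.herm.add_left, add_right H.herm, H.herm.smul_left, smul_right H.herm, (H.fixed _).mpr ht,
          (H.fixed _).mpr (mul_mem hμF (mul_mem ht ht)), hzz, hyy, hzy, hyz, hpz, hpy,
          (eq_zero_comm H.herm).mp hpz, (eq_zero_comm H.herm).mp hpy]
        rw [hμ]
        have := H.two
        field_simp
        ring
      have h : K (z + t • p + (μ * (t * t)) • y) (z + t • p + (μ * (t * t)) • y) = 0 :=
        hall _ (isRat_add (isRat_add hz (isRat_smul ht hp)) (isRat_smul (mul_mem hμF (mul_mem ht ht)) hy)) hw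
      rw [Kl, Kl, Kr, Kr, Kr, Kr, Kr, Kr, hKzz, hKyy, Ks z p, Ks y p, Ks y z] at h
      linear_combination h
    have i1 := ident 1 (one_mem _)
    have i2 := ident (-1) (neg_mem (one_mem _))
    have i3 := ident t₀ ht₀
    have i4 := ident (-t₀) (neg_mem ht₀)
    have h1 : K p z + μ * K p y = 0 := (mul_eq_zero.mp (show (2 * 2) * (K p z + μ * K p y) = 0 by
      linear_combination i1 - i2)).resolve_left (mul_ne_zero H.two H.two)
    have h2 : K p z + t₀ * t₀ * μ * K p y = 0 := (mul_eq_zero.mp (show (2 * 2 * t₀) * (K p z + t₀ * t₀ * μ * K p y) = 0 by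
      linear_combination i3 - i4)).resolve_left (mul_ne_zero (mul_ne_zero H.two H.two) ht00)
    have h3 : K p y = 0 := (mul_eq_zero.mp (show ((t₀ * t₀ - 1) * μ) * K p y = 0 by
      linear_combination h2 - h1)).resolve_left (mul_ne_zero (sub_ne_zero.mpr ht1) hμ0)
    linear_combination h1 - μ * h3
  set Z := G *ᵥ z with hZ
  have hline : (fun i => frobQ hF (Z i)) - frobQ hF (K y z) • Z = 0 := by
    refine H.frame_zero (e₁ := Z) (e₂ := G *ᵥ y) (q₁ := G *ᵥ p₁) (q₂ := G *ᵥ p₂)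
      (by rw [hGiso, hGiso, hGiso, hGiso, hzz, hyy, hzy, hyz]; norm_num)
      (by rw [hGiso, o1z]) (by rw [hGiso, o1y]) (by rw [hGiso, o2z]) (by rw [hGiso, o2y]) (by rw [hGiso, o21])
      (by rw [hGiso]; exact a₁) (by rw [hGiso]; exact a₂) ?_ ?_ ?_ ?_
    all_goals rw [sub_left H.herm, H.herm.smul_left, ← sigma_apply H.herm, hGiso]
    · change frobQ hF (K z z) - _ = 0
      rw [hKzz, hzz]; simp
    · change frobQ hF (K y z) - _ = 0
      rw [hzy]; simp
    · change frobQ hF (K p₁ z) - _ = 0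
      rw [hKp p₁ hp₁ o1z o1y a₁, (eq_zero_comm H.herm).mp o1z]; simp
    · change frobQ hF (K p₂ z) - _ = 0
      rw [hKp p₂ hp₂ o2z o2y a₂, (eq_zero_comm H.herm).mp o2z]; simp
  obtain ⟨k, r, hr, hkr⟩ := H.line_rat (w := Z) (fun h => hz0 (gl_mulVec_injective (g⁻¹) (by
    change G *ᵥ z = G *ᵥ 0
    rw [← hZ, h, Matrix.mulVec_zero]))) (α := frobQ hF (K y z)) (fun i => by
      simpa using congrFun (sub_eq_zero.mp hline) i)
  refine hgn ?_
  have := (subGroupF (Fin n) F₀).inv_mem (H.line_iso hle hsu hno (M.inv_mem hg) hz hzz hz0 hr hkr)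
  rwa [inv_inv] at this

/-- Without rational centres every element of `M` is in the subfield subgroup. -/
theorem OrthFour.mem_of_no_centre {g : GL (Fin n) F} (hg : g ∈ M) : g ∈ subGroupF (Fin n) F₀ := by
  haveI : Nonempty (Fin n) := ⟨⟨0, by have := H.hn; omega⟩⟩
  by_contra hgn
  obtain ⟨ε, hε0, hε⟩ := exists_skew H.herm
  obtain ⟨u, hu, huu, hβ⟩ := H.exists_good hle hsu hno hg hgn
  have hiso := (mem_isoSL.mp (hsu hg)).1
  have hGiso : ∀ x y, Φ (((g⁻¹ : GL (Fin n) F) : Mat) *ᵥ x) (((g⁻¹ : GL (Fin n) F) : Mat) *ᵥ y) = Φ x y :=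
    (mem_isoSL.mp (hsu (M.inv_mem hg))).1
  obtain ⟨a, b, ha, hb, hab⟩ := H.decomp hε0 hε (((g⁻¹ : GL (Fin n) F) : Mat) *ᵥ u)
  have hu0 : u ≠ 0 := fun h => hβ (by rw [h, Matrix.mulVec_zero, zero_left H.herm])
  have hsym : Φ b a = Φ a b := H.symm ha hb
  have hbar : (fun i => frobQ hF ((((g⁻¹ : GL (Fin n) F) : Mat) *ᵥ u) i)) = a + (-ε) • b := funext fun i => by
    rw [hab]
    simp only [Pi.add_apply, Pi.smul_apply, smul_eq_mul, map_add, map_mul, hε, H.sigma_rat ha i, H.sigma_rat hb i]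
  have hvv : Φ a a - ε * ε * Φ b b = 0 := by
    have h := hGiso u u
    rw [hab, huu] at h
    simp only [H.herm.add_left, add_right H.herm, H.herm.smul_left, smul_right H.herm, hε, hsym] at h
    linear_combination h
  have hnz : Φ b b ≠ 0 ∨ Φ a b ≠ 0 := by
    by_contra hc
    push Not at hc
    apply hβ
    rw [hbar, hab]
    simp only [H.herm.add_left, add_right H.herm, H.herm.smul_left, smul_right H.herm, map_neg, hε, hsym, hc.1, hc.2]
    linear_combination hvv + (ε * ε) * hc.1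
  have hD : Φ a a * Φ b b - Φ a b * Φ b a ≠ 0 := by
    intro h0
    rw [hsym] at h0
    by_cases hB : Φ b b = 0
    · rw [hB, mul_zero, zero_sub, neg_eq_zero, mul_self_eq_zero] at h0
      exact hnz.elim (fun h => h hB) (fun h => h h0)
    · refine H.not_sq hε0 hε (div_mem (H.rat _ _ ha hb) (H.rat _ _ hb hb)) ?_
      rw [div_mul_div_comm, div_eq_iff (mul_ne_zero hB hB)]
      linear_combination Φ b b * hvv - h0
  obtain ⟨p₁, p₂, s₀, ⟨o1a, o1b, o2a, o2b, o21, a₁, a₂⟩, hrs, hfix, u', hu', hu'₀, hu'u', huu', hu₀⟩ :=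
    H.stable hle hsu hno hg hu huu hu0 ha hb hab hD
  have hu'u : Φ u' u = 1 := by rw [H.symm hu hu']; exact huu'
  set e₁ := ((g⁻¹ : GL (Fin n) F) : Mat) *ᵥ u with he₁
  set e₂ := ((g⁻¹ : GL (Fin n) F) : Mat) *ᵥ u' with he₂
  have hDe : Φ e₁ e₁ * Φ e₂ e₂ - Φ e₁ e₂ * Φ e₂ e₁ ≠ 0 := by
    rw [hGiso, hGiso, hGiso, hGiso, huu, hu'u', huu', hu'u]; norm_num
  obtain ⟨oe11, oe12⟩ := (hfix u).mp hu₀
  obtain ⟨oe21, oe22⟩ := (hfix u').mp hu'₀
  rw [← he₁] at oe11 oe12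
  rw [← he₂] at oe21 oe22
  obtain ⟨r₁, r₂, hr₁, hr₂, or1u, or1u', or2u, or2u', or21, ar₁, ar₂⟩ :=
    H.perp_basis hu hu' (by rw [huu, hu'u', huu', hu'u]; norm_num)
  -- a rotation of the plane of `a` and `b`
  obtain ⟨w₁, w₂, hw₁, hw₂, hw11, hw22, hw12, hw1, hw2, hind⟩ : ∃ w₁ w₂, IsRatVec F₀ w₁ ∧ IsRatVec F₀ w₂ ∧
      Φ w₁ w₁ ≠ 0 ∧ Φ w₂ w₂ ≠ 0 ∧ Φ w₁ w₂ ≠ 0 ∧ (∃ i j : F, i ∈ F₀ ∧ j ∈ F₀ ∧ w₁ = i • a + j • b) ∧
      (∃ i j : F, i ∈ F₀ ∧ j ∈ F₀ ∧ w₂ = i • a + j • b) ∧ ∀ m : F, w₂ ≠ m • w₁ := by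
    have hindab : ∀ s t : F, s • a + t • b = 0 → s = 0 ∧ t = 0 := by
      intro s t h
      have h1 := congrArg (fun w => Φ w a) h
      have h2 := congrArg (fun w => Φ w b) h
      simp only [H.herm.add_left, H.herm.smul_left, zero_left H.herm] at h1 h2
      exact ⟨(mul_eq_zero.mp (show (Φ a a * Φ b b - Φ a b * Φ b a) * s = 0 by
        linear_combination Φ b b * h1 - Φ b a * h2)).resolve_left hD,
        (mul_eq_zero.mp (show (Φ a a * Φ b b - Φ a b * Φ b a) * t = 0 by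
        linear_combination Φ a a * h2 - Φ a b * h1)).resolve_left hD⟩
    have hne : ∀ (i j k l : F), i * l - j * k ≠ 0 → ∀ m : F, k • a + l • b ≠ m • (i • a + j • b) := by
      intro i j k l hdet m h
      obtain ⟨h1, h2⟩ := hindab (k - m * i) (l - m * j) (by
        have := sub_eq_zero.mpr h
        linear_combination (norm := module) this)
      exact hdet (by linear_combination i * h2 - j * h1)
    obtain ⟨t₀, ht₀, ht00, ht1⟩ := H.exists_t
    have h2 := H.two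
    by_cases hB : Φ b b = 0
    · have hC : Φ a b ≠ 0 := hnz.resolve_left fun h => h hB
      have hA : Φ a a = 0 := by linear_combination hvv + (ε * ε) * hB
      have h11 : t₀ ≠ 1 := fun h => ht1 (by rw [h, one_mul])
      have h1m : 1 + t₀ ≠ 0 := fun h => ht1 (by linear_combination (t₀ - 1) * h)
      refine ⟨(1 : F) • a + (1 : F) • b, (1 : F) • a + t₀ • b, isRat_add (isRat_smul (one_mem _) ha)
        (isRat_smul (one_mem _) hb), isRat_add (isRat_smul (one_mem _) ha) (isRat_smul ht₀ hb), ?_, ?_, ?_,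
        ⟨1, 1, one_mem _, one_mem _, rfl⟩, ⟨1, t₀, one_mem _, ht₀, rfl⟩,
        hne 1 1 1 t₀ (by simpa using sub_ne_zero.mpr h11)⟩
      all_goals simp only [H.herm.add_left, add_right H.herm, H.herm.smul_left, smul_right H.herm, map_one,
        (H.fixed _).mpr ht₀, hA, hB, hsym, one_mul, mul_zero, add_zero, zero_add]
      · rw [← two_mul]; exact mul_ne_zero h2 hC
      · rw [← two_mul]; exact mul_ne_zero h2 (mul_ne_zero ht00 hC)
      · exact fun h => mul_ne_zero h1m hC (by linear_combination h)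
    have hA : Φ a a ≠ 0 := fun h => mul_ne_zero (mul_ne_zero hε0 hε0) hB (by linear_combination h - hvv)
    by_cases hC : Φ a b = 0
    · obtain ⟨t, htF, ht0, ht2⟩ : ∃ t, t ∈ F₀ ∧ t ≠ 0 ∧ ε * ε + t * t ≠ 0 := by
        by_cases hν : ε * ε + 1 = 0
        · exact ⟨t₀, ht₀, ht00, fun h => ht1 (by linear_combination h - hν)⟩
        · exact ⟨1, one_mem _, one_ne_zero, by rwa [one_mul]⟩
      refine ⟨(1 : F) • a + (0 : F) • b, (1 : F) • a + t • b, isRat_add (isRat_smul (one_mem _) ha)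
        (isRat_smul (zero_mem _) hb), isRat_add (isRat_smul (one_mem _) ha) (isRat_smul htF hb), ?_, ?_, ?_,
        ⟨1, 0, one_mem _, zero_mem _, rfl⟩, ⟨1, t, one_mem _, htF, rfl⟩, hne 1 0 1 t (by simpa using ht0)⟩
      all_goals simp only [H.herm.add_left, add_right H.herm, H.herm.smul_left, smul_right H.herm, map_one, map_zero,
        (H.fixed _).mpr htF, hC, hsym, one_mul, mul_zero, zero_mul, add_zero, zero_add]
      · exact hA
      · exact fun h => mul_ne_zero hB ht2 (by linear_combination h - hvv)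
      · exact hA
    · exact ⟨a, b, ha, hb, hA, hB, hC, ⟨1, 0, one_mem _, zero_mem _, by simp⟩, ⟨0, 1, zero_mem _, one_mem _, by simp⟩,
        fun m h => one_ne_zero (hindab (-m) 1 (by rw [h]; module)).2⟩
  obtain ⟨h, hh, hhv⟩ := H.refl₂ hw₁ hw₂ hw11 hw22
  have hwp : ∀ w, (∃ i j : F, i ∈ F₀ ∧ j ∈ F₀ ∧ w = i • a + j • b) → Φ p₁ w = 0 ∧ Φ p₂ w = 0 := by
    rintro w ⟨i, j, -, -, rfl⟩
    simp [add_right H.herm, smul_right H.herm, o1a, o1b, o2a, o2b]
  have hfixp : (h : Mat) *ᵥ p₁ = p₁ ∧ (h : Mat) *ᵥ p₂ = p₂ := by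
    obtain ⟨h11, h21⟩ := hwp w₁ hw1
    obtain ⟨h12, h22⟩ := hwp w₂ hw2
    constructor <;> rw [hhv] <;> simp [H.herm.add_left, H.herm.smul_left, h11, h21, h12, h22]
  set s := g * h * g⁻¹ with hs
  have hsM : s ∈ M := M.mul_mem (M.mul_mem hg (hle hh)) (M.inv_mem hg)
  have hsv : ∀ x, (s : Mat) *ᵥ x = (g : Mat) *ᵥ ((h : Mat) *ᵥ (((g⁻¹ : GL (Fin n) F) : Mat) *ᵥ x)) := fun x => by
    rw [hs]; simp only [Units.val_mul, ← Matrix.mulVec_mulVec]
  have op1e : Φ p₁ e₁ = 0 := (eq_zero_comm H.herm).mp oe11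
  have op2e : Φ p₂ e₁ = 0 := (eq_zero_comm H.herm).mp oe12
  have op1e' : Φ p₁ e₂ = 0 := (eq_zero_comm H.herm).mp oe21
  have op2e' : Φ p₂ e₂ = 0 := (eq_zero_comm H.herm).mp oe22
  have hsr : ∀ r, Φ r u = 0 → Φ r u' = 0 → (s : Mat) *ᵥ r = r := by
    intro r h1 h2
    obtain ⟨m, l, hml⟩ := H.in_perp hDe op1e op1e' op2e op2e' o21 a₁ a₂
      (x := ((g⁻¹ : GL (Fin n) F) : Mat) *ᵥ r) (by rw [hGiso, h1]) (by rw [hGiso, h2])
    rw [hsv, hml, Matrix.mulVec_add, Matrix.mulVec_smul, Matrix.mulVec_smul, hfixp.1, hfixp.2, ← hml, gl_mulVec_inv]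
  have hs1 := hsr r₁ or1u or1u'
  have hs2 := hsr r₂ or2u or2u'
  have hisos := (mem_isoSL.mp (hsu hsM)).1
  have hDu : Φ u u * Φ u' u' - Φ u u' * Φ u' u ≠ 0 := by rw [huu, hu'u', huu', hu'u]; norm_num
  have himg : ∀ x, Φ x r₁ = 0 → Φ x r₂ = 0 → ∃ i j : F, (s : Mat) *ᵥ x = i • u + j • u' := fun x h1 h2 =>
    H.in_plane hDu or1u or1u' or2u or2u' or21 ar₁ ar₂ (by conv_lhs => rw [← hs1]; rw [hisos, h1])
      (by conv_lhs => rw [← hs2]; rw [hisos, h2])
  obtain ⟨α, c, hsu₁⟩ := himg u ((eq_zero_comm H.herm).mp or1u) ((eq_zero_comm H.herm).mp or2u)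
  obtain ⟨β, d, hsu₂⟩ := himg u' ((eq_zero_comm H.herm).mp or1u') ((eq_zero_comm H.herm).mp or2u')
  have hdet : α * d - β * c = 1 := by
    have hdet1 : (s : Mat).det = 1 := by
      have := (mem_isoSL.mp (hsu hsM)).2
      simpa [Cfsg.Geo.specialLinear, Units.ext_iff] using this
    rw [← hdet1, det_pair H.hn (fun x₁ x₂ x₃ x₄ hx => ?_) hsu₁ hsu₂ hs1 hs2]
    have c1 := congrArg (fun w => Φ w u') hx
    have c2 := congrArg (fun w => Φ w u) hx
    have c3 := congrArg (fun w => Φ w r₁) hx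
    have c4 := congrArg (fun w => Φ w r₂) hx
    simp only [H.herm.add_left, H.herm.smul_left, zero_left H.herm, huu, hu'u', huu', hu'u, or1u, or1u', or2u, or2u',
      (eq_zero_comm H.herm).mp or1u, (eq_zero_comm H.herm).mp or1u', (eq_zero_comm H.herm).mp or2u,
      (eq_zero_comm H.herm).mp or2u', or21, (eq_zero_comm H.herm).mp or21, mul_zero, mul_one, add_zero, zero_add,
      mul_eq_zero, ar₁, ar₂, or_false] at c1 c2 c3 c4
    exact ⟨c1, c2, c3, c4⟩
  have hsS := H.su_plane hle hsu hno hsM hu hu' huu hu'u' huu' hr₁ hr₂ or1u or1u' or2u or2u' or21 ar₁ ar₂ hs1 hs2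
    hsu₁ hsu₂ hdet
  have hr₁0 : r₁ ≠ 0 := fun h => ar₁ (by rw [h, zero_left H.herm])
  have hsrat := rational_of_fix hsS hr₁ hr₁0 hs1
  have hsur : IsRatVec F₀ ((s : Mat) *ᵥ u) := mulVec_rat hsrat hu
  have hαF : α ∈ F₀ := by
    have := H.rat _ _ hsur hu'
    simpa [hsu₁, H.herm.add_left, H.herm.smul_left, huu', hu'u'] using this
  have hcF : c ∈ F₀ := by
    have := H.rat _ _ hsur hu
    simpa [hsu₁, H.herm.add_left, H.herm.smul_left, huu, hu'u] using this
  have hc0 : c = 0 := by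
    have h0 := hisos u u
    simp only [hsu₁, H.herm.add_left, add_right H.herm, H.herm.smul_left, smul_right H.herm, huu, hu'u', huu', hu'u,
      (H.fixed _).mpr hαF, (H.fixed _).mpr hcF] at h0
    have h' : (2 * α) * c = 0 := by linear_combination h0
    refine (mul_eq_zero.mp h').resolve_left (mul_ne_zero H.two fun hα => ?_)
    have hβF : β ∈ F₀ := by
      have := H.rat _ _ (mulVec_rat hsrat hu') hu'
      simpa [hsu₂, H.herm.add_left, H.herm.smul_left, huu', hu'u'] using this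
    have h3 := hisos u u'
    simp only [hsu₁, hsu₂, H.herm.add_left, add_right H.herm, H.herm.smul_left, smul_right H.herm, huu, hu'u', huu',
      hu'u, (H.fixed _).mpr hβF, hα, map_zero] at h3
    rw [hα] at hdet
    exact H.two (by linear_combination -h3 - hdet)
  rw [hc0, zero_smul, add_zero] at hsu₁
  have hhe : (h : Mat) *ᵥ (a + ε • b) = α • (a + ε • b) := by
    refine gl_mulVec_injective g ?_
    change (g : Mat) *ᵥ _ = (g : Mat) *ᵥ _
    rw [← hab, ← hsv, hsu₁, Matrix.mulVec_smul, he₁, gl_mulVec_inv]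
  have hw₁0 : w₁ ≠ 0 := fun h => hw11 (by rw [h, zero_left H.herm])
  obtain ⟨cs, hcs, hhm⟩ := mem_subGroupF.mp hh.1
  have hhr : ∀ i j, (h : Mat) i j ∈ F₀ := by
    have hp0 : p₁ ≠ 0 := fun h => a₁ (by rw [h, zero_left H.herm])
    obtain ⟨k₁, k₂, hk₁, hk₂, hk⟩ := hw2
    intro i j
    have hx := congrFun (hhv (Pi.single j 1)) i
    rw [Matrix.mulVec_single_one, Matrix.col_apply] at hx
    rw [hx]
    have hm2 : (-2 : F) ∈ F₀ := neg_mem H.two_mem
    have hy₁ := isRat_add (isRat_single j (F₀ := F₀))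
      (isRat_smul (mul_mem (div_mem hm2 (H.rat _ _ hw₂ hw₂)) (H.rat _ _ (isRat_single j) hw₂)) hw₂)
    exact isRat_add hy₁ (isRat_smul (mul_mem (div_mem hm2 (H.rat _ _ hw₁ hw₁)) (H.rat _ _ hy₁ hw₁)) hw₁) i
  have hboth : (h : Mat) *ᵥ a - α • a = 0 ∧ (h : Mat) *ᵥ b - α • b = 0 := by
    rw [Matrix.mulVec_add, Matrix.mulVec_smul] at hhe
    have hra := isRat_sub (mulVec_rat hhr ha) (isRat_smul hαF ha)
    have hrb := isRat_sub (mulVec_rat hhr hb) (isRat_smul hαF hb)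
    constructor <;> funext i <;>
    · have := congrFun hhe i
      simp only [Pi.add_apply, Pi.smul_apply, smul_eq_mul] at this
      obtain ⟨k1, k2⟩ := H.split_zero hε0 hε (hra i) (hrb i) (by
        simp only [Pi.sub_apply, Pi.smul_apply, smul_eq_mul]; linear_combination this)
      first | exact k1 | exact k2
  obtain ⟨i, j, -, -, hij⟩ := hw1
  have hhw : (h : Mat) *ᵥ w₁ = α • w₁ := by
    rw [hij, Matrix.mulVec_add, Matrix.mulVec_smul, Matrix.mulVec_smul, sub_eq_zero.mp hboth.1,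
      sub_eq_zero.mp hboth.2]
    module
  rw [hhv] at hhw
  set cb := -2 / Φ w₂ w₂ * Φ w₁ w₂ with hcb
  have hcb0 : cb ≠ 0 := mul_ne_zero (div_ne_zero (neg_ne_zero.mpr H.two) hw22) hw12
  set ca := -2 / Φ w₁ w₁ * Φ (w₁ + cb • w₂) w₁
  refine hind ((α - 1 - ca) / cb) ?_
  have : cb • w₂ = (α - 1 - ca) • w₁ := by linear_combination (norm := module) hhw
  calc w₂ = cb⁻¹ • (cb • w₂) := by rw [smul_smul, inv_mul_cancel₀ hcb0, one_smul]
    _ = _ := by rw [this, smul_smul, div_eq_inv_mul]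

end

end Cfsg.Agent.H60.SUFour
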