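import Cfsg.Agent.H60.SUFour.OrthKill

set_option autoImplicit false
set_option linter.style.haveILetI false
set_option linter.unusedSectionVars false

/-!
# Orthogonal subfield subgroups of `SU_4` are maximal
-/

namespace Cfsg.Agent.H60.SUFour

open scoped Matrix
open Cfsg.Agent.H98 Cfsg.Agent.H98.Herm

variable {F : Type*} [Field F] [Fintype F] {q n : ℕ}

local notation "Mat" => Matrix (Fin n) (Fin n) F

section
variable {hF : Fintype.card F = q ^ 2} {F₀ : Subfield F} {P : GL (Fin n) F} (H : OrthFour hF F₀ P)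
include H

/-- A rational vector with prescribed products against two independent rational vectors, made isotropic. -/
theorem OrthFour.exists_iso_prescribed {a b : Fin n → F} (ha : IsRatVec F₀ a) (hb : IsRatVec F₀ b)
    (hind : ∀ s t : F, s • a + t • b = 0 → s = 0 ∧ t = 0)
    (hD : pullForm n q P a a * pullForm n q P b b - pullForm n q P a b * pullForm n q P b a ≠ 0)
    {A B : F} (hA : A ∈ F₀) (hB : B ∈ F₀) :
    ∃ z, IsRatVec F₀ z ∧ pullForm n q P z z = 0 ∧ pullForm n q P z a = A ∧ pullForm n q P z b = B := by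
  have dual : ∀ a b : Fin n → F, IsRatVec F₀ a → IsRatVec F₀ b → (∀ s t : F, s • a + t • b = 0 → s = 0 ∧ t = 0) →
      ∃ p, IsRatVec F₀ p ∧ pullForm n q P p a = 1 ∧ pullForm n q P p b = 0 := by
    intro a b ha hb hind
    have hb0 : b ≠ 0 := fun h => one_ne_zero (hind 0 1 (by rw [h, smul_zero, zero_smul, add_zero])).2
    obtain ⟨y, hy, hyb⟩ := H.exists_nonorth hb0
    set d := pullForm n q P y a / pullForm n q P y b with hd
    have hdF : d ∈ F₀ := div_mem (H.rat _ _ hy ha) (H.rat _ _ hy hb)
    set a' := a - d • b with ha'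
    have ha'0 : a' ≠ 0 := fun h => one_ne_zero (hind 1 (-d) (by rw [one_smul, neg_smul, ← sub_eq_add_neg]; exact h)).1
    obtain ⟨x, hx, hxa⟩ := H.exists_nonorth ha'0
    set p := x - (pullForm n q P x b / pullForm n q P y b) • y with hp
    have hpr : IsRatVec F₀ p := isRat_sub hx (isRat_smul (div_mem (H.rat _ _ hx hb) (H.rat _ _ hy hb)) hy)
    have hpb : pullForm n q P p b = 0 := by
      rw [hp, sub_left H.herm, H.herm.smul_left, div_mul_cancel₀ _ hyb, sub_self]
    have hpa : pullForm n q P p a = pullForm n q P x a' := by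
      rw [hp, ha', sub_left H.herm, H.herm.smul_left, sub_right H.herm, smul_right H.herm, (H.fixed _).mpr hdF, hd]
      field_simp
    refine ⟨(pullForm n q P p a)⁻¹ • p, isRat_smul (inv_mem (H.rat _ _ hpr ha)) hpr, ?_, ?_⟩
    · rw [H.herm.smul_left, inv_mul_cancel₀ (by rw [hpa]; exact hxa)]
    · rw [H.herm.smul_left, hpb, mul_zero]
  obtain ⟨p, hp, hpa, hpb⟩ := dual a b ha hb hind
  obtain ⟨r, hr, hrb, hra⟩ := dual b a hb ha (fun s t h => (hind t s (by rw [add_comm]; exact h)).symm)
  set x₀ := A • p + B • r with hx₀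
  have hx₀r : IsRatVec F₀ x₀ := isRat_add (isRat_smul hA hp) (isRat_smul hB hr)
  have ea : pullForm n q P x₀ a = A := by rw [hx₀, H.herm.add_left, H.herm.smul_left, H.herm.smul_left, hpa, hra]; ring
  have eb : pullForm n q P x₀ b = B := by rw [hx₀, H.herm.add_left, H.herm.smul_left, H.herm.smul_left, hpb, hrb]; ring
  -- two anisotropic vectors orthogonal to `a` and `b`
  obtain ⟨x₁, x₂, hx₁, hx₂, h1a, h1b, h2a, h2b, h21, a₁, a₂⟩ := H.perp_basis ha hb hD
  have h12 := (eq_zero_comm H.herm).mp h21
  set l₁ := pullForm n q P x₀ x₁ / pullForm n q P x₁ x₁ with hl₁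
  set l₂ := pullForm n q P x₀ x₂ / pullForm n q P x₂ x₂ with hl₂
  set y₀ := x₀ - l₁ • x₁ - l₂ • x₂ with hy₀
  have hy₀r : IsRatVec F₀ y₀ := isRat_sub
    (isRat_sub hx₀r (isRat_smul (div_mem (H.rat _ _ hx₀r hx₁) (H.rat _ _ hx₁ hx₁)) hx₁))
    (isRat_smul (div_mem (H.rat _ _ hx₀r hx₂) (H.rat _ _ hx₂ hx₂)) hx₂)
  have y1 : pullForm n q P y₀ x₁ = 0 := by
    simp only [hy₀, sub_left H.herm, H.herm.smul_left, h21, hl₁, div_mul_cancel₀ _ a₁, mul_zero, sub_zero, sub_self]
  have y2 : pullForm n q P y₀ x₂ = 0 := by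
    simp only [hy₀, sub_left H.herm, H.herm.smul_left, h12, hl₂, div_mul_cancel₀ _ a₂, mul_zero, sub_zero, sub_self]
  have y1' := (eq_zero_comm H.herm).mp y1
  have y2' := (eq_zero_comm H.herm).mp y2
  obtain ⟨s, t, hs, ht, hst⟩ := H.solve hx₁ hx₂ a₁ a₂ (H.rat _ _ hy₀r hy₀r)
  have ya : pullForm n q P y₀ a = A := by
    simp only [hy₀, sub_left H.herm, H.herm.smul_left, ea, h1a, h2a, mul_zero, sub_zero]
  have yb : pullForm n q P y₀ b = B := by
    simp only [hy₀, sub_left H.herm, H.herm.smul_left, eb, h1b, h2b, mul_zero, sub_zero]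
  clear_value y₀
  refine ⟨y₀ + s • x₁ + t • x₂, isRat_add (isRat_add hy₀r (isRat_smul hs hx₁)) (isRat_smul ht hx₂), ?_, ?_, ?_⟩
  · simp only [H.herm.add_left, add_right H.herm, H.herm.smul_left, smul_right H.herm, (H.fixed _).mpr hs,
      (H.fixed _).mpr ht, y1, y2, y1', y2', h12, h21]
    linear_combination hst
  · simp only [H.herm.add_left, H.herm.smul_left, ya, h1a, h2a, mul_zero, add_zero]
  · simp only [H.herm.add_left, H.herm.smul_left, yb, h1b, h2b, mul_zero, add_zero]

/-- The orthogonal subfield subgroup is maximal. -/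
theorem OrthFour.maximal :
    Cfsg.Geo.IsMaximalIn (isoSL (pullForm n q P)) (subGroupF (Fin n) F₀ ⊓ isoSL (pullForm n q P)) := by
  classical
  haveI : Nonempty (Fin n) := ⟨⟨0, by have := H.hn; omega⟩⟩
  obtain ⟨ε, hε0, hε⟩ := exists_skew H.herm
  have hεF : ε * ε ∈ F₀ := (H.fixed _).mp (by rw [map_mul, hε, neg_mul_neg])
  refine isMaximalIn_of inf_le_right ?_ fun M h1 h2 g hgM hgH => ?_
  · obtain ⟨z, y, hz, hy, hzz, hyy, hzy, hyz⟩ := H.pair0
    obtain ⟨w, w', hw, -, w0, w1, -, -, -, hww, -⟩ := H.perp_basis hz hy (by rw [hzz, hyy, hzy, hyz]; norm_num)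
    set v := z + ε • y with hv
    have hvv : pullForm n q P v v = 0 := by
      simp only [hv, H.herm.add_left, add_right H.herm, H.herm.smul_left, smul_right H.herm, hε, hzz, hyy, hzy, hyz]
      ring
    refine ⟨uT H.herm hvv ε, ⟨fun a b => uT_iso H.herm hvv hε a b, transGL_mem_sl _ _ _⟩, fun hm => ?_⟩
    have hw0 : w ≠ 0 := fun h => hww (by rw [h, zero_left H.herm])
    have hfixw : (uT H.herm hvv ε : Mat) *ᵥ w = w := by
      rw [uT_mulVec, hv, add_right H.herm, smul_right H.herm, w0, w1, mul_zero, add_zero, mul_zero, zero_smul,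
        add_zero]
    have hT := rational_of_fix hm.1 hw hw0 hfixw
    have hr := isRat_sub (mulVec_rat hT hz) hz
    rw [uT_mulVec, add_sub_cancel_left] at hr
    set k := ε * pullForm n q P z v with hk
    have hk' : k = -(ε * ε) := by rw [hk, hv, add_right H.herm, smul_right H.herm, hzz, hzy, hε]; ring
    have hy0 : y ≠ 0 := fun h => by rw [h, zero_left H.herm] at hyz; exact zero_ne_one hyz
    obtain ⟨p, hp⟩ := Function.ne_iff.mp hy0
    have h3 : k * z p + (k * ε) * y p ∈ F₀ := by
      have := hr p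
      rwa [Pi.smul_apply, hv, Pi.add_apply, Pi.smul_apply, smul_eq_mul, smul_eq_mul, mul_add, ← mul_assoc] at this
    have hkF : k ∈ F₀ := hk' ▸ neg_mem hεF
    have h4 : k * ε * y p ∈ F₀ := by
      have := sub_mem h3 (mul_mem hkF (hz p))
      rwa [add_sub_cancel_left] at this
    have h5 : k * y p ≠ 0 := mul_ne_zero (by rw [hk']; exact neg_ne_zero.mpr (mul_ne_zero hε0 hε0)) hp
    have h6 : ε ∈ F₀ := by
      have := mul_mem h4 (inv_mem (mul_mem hkF (hy p)))
      rwa [show k * ε * y p = ε * (k * y p) by ring, mul_assoc, mul_inv_cancel₀ h5, mul_one] at this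
    have := (H.fixed _).mpr h6
    rw [hε] at this
    exact hε0 ((mul_eq_zero.mp (show (2 : F) * ε = 0 by linear_combination -this)).resolve_left H.two)
  have hiso : ∀ k ∈ M, ∀ a b, pullForm n q P ((k : Mat) *ᵥ a) ((k : Mat) *ᵥ b) = pullForm n q P a b :=
    fun k hk => (mem_isoSL.mp (h2 hk)).1
  have hgS : g ∉ subGroupF (Fin n) F₀ := fun h => hgH ⟨h, h2 hgM⟩
  obtain ⟨z₀, hz₀, hz₀z₀, hz₀0, hz₀C⟩ :
      ∃ z, IsRatVec F₀ z ∧ pullForm n q P z z = 0 ∧ z ≠ 0 ∧ z ∈ centres H.herm M := by
    by_contra hc; push Not at hc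
    exact hgS (H.mem_of_no_centre h1 h2 hc hgM)
  -- transitivity on rational isotropic lines
  have hnon : ∀ u w, IsRatVec F₀ u → IsRatVec F₀ w → pullForm n q P u u = 0 → pullForm n q P w w = 0 →
      pullForm n q P u w ≠ 0 → u ∈ centres H.herm M → w ∈ centres H.herm M := by
    intro u w hu hw huu hww hne hC
    set c := (pullForm n q P u w)⁻¹ with hc
    have hcF : c ∈ F₀ := inv_mem (H.rat _ _ hu hw)
    obtain ⟨r, r', hr, -, r0, r1, -, -, -, hrr, -⟩ := H.perp_basis hu hw (by
      rw [huu, hww, zero_mul, zero_sub, neg_ne_zero, H.symm hu hw]; exact mul_ne_zero hne hne)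
    obtain ⟨k, hk, e⟩ := H.move (u := u) (w := c • w) (r := r) huu
      (by rw [H.herm.smul_left, smul_right H.herm, hww, mul_zero, mul_zero]) hu (isRat_smul hcF hw)
      (by rw [smul_right H.herm, (H.fixed _).mpr hcF, hc, inv_mul_cancel₀ hne]) hr r0
      (by rw [smul_right H.herm, r1, mul_zero]) hrr
    have h3 := centres_conj H.herm hiso (h1 hk) hC
    rw [e, smul_smul] at h3
    have h4 : (- pullForm n q P r r / 2) * c ≠ 0 :=
      mul_ne_zero (div_ne_zero (neg_ne_zero.mpr hrr) H.two) (inv_ne_zero hne)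
    have h5 := centres_smul H.herm h3 ((- pullForm n q P r r / 2) * c)⁻¹
    rwa [smul_smul, inv_mul_cancel₀ h4, one_smul] at h5
  have hCr : ∀ w, IsRatVec F₀ w → pullForm n q P w w = 0 → w ∈ centres H.herm M := by
    intro w hw hww
    rcases eq_or_ne w 0 with rfl | hw0
    · have := centres_smul H.herm hz₀C 0
      rwa [zero_smul] at this
    by_cases hzw : pullForm n q P z₀ w = 0
    swap
    · exact hnon z₀ w hz₀ hw hz₀z₀ hww hzw hz₀C
    obtain ⟨a, ha, haa, hza⟩ := H.partner hz₀ hz₀z₀ hz₀0
    obtain ⟨b, hb, hbb, hwb⟩ := H.partner hw hww hw0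
    by_cases h3 : pullForm n q P w a = 0
    swap
    · exact hnon a w ha hw haa hww (fun h => h3 ((eq_zero_comm H.herm).mp h))
        (hnon z₀ a hz₀ ha hz₀z₀ haa (by rw [hza]; exact one_ne_zero) hz₀C)
    by_cases h4 : pullForm n q P z₀ b = 0
    swap
    · exact hnon b w hb hw hbb hww (fun h => one_ne_zero (hwb.symm.trans ((eq_zero_comm H.herm).mp h)))
        (hnon z₀ b hz₀ hb hz₀z₀ hbb h4 hz₀C)
    set μ := - pullForm n q P a b with hμ
    have hμF : μ ∈ F₀ := neg_mem (H.rat _ _ ha hb)
    set u := a + b + μ • z₀ with hu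
    have hur : IsRatVec F₀ u := isRat_add (isRat_add ha hb) (isRat_smul hμF hz₀)
    have e1 : pullForm n q P z₀ u = 1 := by
      rw [hu, add_right H.herm, add_right H.herm, smul_right H.herm, hza, h4, hz₀z₀]; ring
    have e2 : pullForm n q P w u = 1 := by
      rw [hu, add_right H.herm, add_right H.herm, smul_right H.herm, h3, hwb, (eq_zero_comm H.herm).mp hzw]; ring
    have hba : pullForm n q P b a = pullForm n q P a b := H.symm ha hb
    have haz : pullForm n q P a z₀ = 1 := by rw [H.symm hz₀ ha]; exact hza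
    have huu : pullForm n q P u u = 0 := by
      simp only [hu, H.herm.add_left, add_right H.herm, H.herm.smul_left, smul_right H.herm, (H.fixed _).mpr hμF,
        haa, hbb, hba, haz, hza, h4, (eq_zero_comm H.herm).mp h4, hz₀z₀]
      rw [hμ]; ring
    exact hnon u w hur hw huu hww (fun h => one_ne_zero (e2.symm.trans ((eq_zero_comm H.herm).mp h)))
      (hnon z₀ u hz₀ hur hz₀z₀ huu (by rw [e1]; exact one_ne_zero) hz₀C)
  refine isoSL_le_of_uT hF (by have := H.hn; omega) P fun v hvv d hd => ?_
  suffices hvc : v ∈ centres H.herm M by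
    obtain ⟨_, hv'⟩ := hvc
    exact hv' d hd
  obtain ⟨a, b, ha, hb, rfl⟩ := H.decomp hε0 hε v
  have hεε : ε * ε ≠ 0 := mul_ne_zero hε0 hε0
  by_cases hind : ∀ s t : F, s • a + t • b = 0 → s = 0 ∧ t = 0
  swap
  · push Not at hind
    obtain ⟨s, t, hst, hne⟩ := hind
    -- a multiple of a rational vector
    obtain ⟨k, r, hr, hkr⟩ : ∃ (k : F) (r : Fin n → F), IsRatVec F₀ r ∧ a + ε • b = k • r := by
      by_cases hb0 : b = 0
      · exact ⟨1, a, ha, by rw [hb0, smul_zero, add_zero, one_smul]⟩
      have hs : s ≠ 0 := fun h => by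
        rw [h, zero_smul, zero_add, smul_eq_zero] at hst
        exact hne h (hst.resolve_right hb0)
      have : a = (-(t / s)) • b := by
        have := congrArg (fun w => s⁻¹ • w) hst
        simp only [smul_add, smul_smul, inv_mul_cancel₀ hs, one_smul, smul_zero] at this
        rw [eq_neg_of_add_eq_zero_left this, neg_smul, div_eq_inv_mul]
      exact ⟨-(t / s) + ε, b, hb, by rw [this]; module⟩
    rw [hkr] at hvv ⊢
    rcases eq_or_ne k 0 with rfl | hk
    · rw [zero_smul]
      have := centres_smul H.herm hz₀C 0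
      rwa [zero_smul] at this
    rw [H.herm.smul_left, smul_right H.herm] at hvv
    refine centres_smul H.herm (hCr r hr ?_) k
    simpa [hk] using hvv
  -- the invariant
  have hsym : pullForm n q P b a = pullForm n q P a b := H.symm ha hb
  have hvv' : pullForm n q P a a - ε * ε * pullForm n q P b b = 0 := by
    have := hvv
    simp only [H.herm.add_left, add_right H.herm, H.herm.smul_left, smul_right H.herm, hε, hsym] at this
    linear_combination this
  suffices hgen : ∀ a b : Fin n → F, IsRatVec F₀ a → IsRatVec F₀ b →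
      pullForm n q P (a + ε • b) (a + ε • b) = 0 →
      pullForm n q P a a * pullForm n q P b b - pullForm n q P a b * pullForm n q P b a ≠ 0 →
      a + ε • b ∈ centres H.herm M by
    by_cases hD : pullForm n q P a a * pullForm n q P b b - pullForm n q P a b * pullForm n q P b a ≠ 0
    · exact hgen a b ha hb hvv hD
    -- a totally singular plane
    rw [not_not, hsym] at hD
    have hQb : pullForm n q P b b = 0 := by
      by_contra hB
      refine H.not_sq hε0 hε (div_mem (H.rat _ _ ha hb) (H.rat _ _ hb hb)) ?_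
      rw [div_mul_div_comm, div_eq_iff (mul_ne_zero hB hB)]
      linear_combination pullForm n q P b b * hvv' - hD
    have hQa : pullForm n q P a a = 0 := by linear_combination hvv' + (ε * ε) * hQb
    have hCab : pullForm n q P a b = 0 := by
      rw [hQa, zero_mul, zero_sub, neg_eq_zero, mul_self_eq_zero] at hD
      exact hD
    have hb0 : b ≠ 0 := fun h => one_ne_zero (hind 0 1 (by rw [h, smul_zero, zero_smul, add_zero])).2
    obtain ⟨y, hy, hyy, hby⟩ := H.partner hb hQb hb0
    have hyb : pullForm n q P y b = 1 := by rw [H.symm hb hy]; exact hby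
    obtain ⟨m, hm⟩ : ∃ m, pullForm n q P a y = m := ⟨_, rfl⟩
    have hmF : m ∈ F₀ := hm ▸ H.rat _ _ ha hy
    have hya : pullForm n q P y a = m := by rw [H.symm ha hy]; exact hm
    have hσm := (H.fixed _).mpr hmF
    have hσν := (H.fixed _).mpr hεF
    set a₁ := a + (ε * ε) • y with ha₁
    set b₁ := b + m • y with hb₁
    have ha₁r : IsRatVec F₀ a₁ := isRat_add ha (isRat_smul hεF hy)
    have hb₁r : IsRatVec F₀ b₁ := isRat_add hb (isRat_smul hmF hy)
    have hν : m * m - ε * ε ≠ 0 := fun h => H.not_sq hε0 hε hmF (by linear_combination h)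
    have h := hgen a₁ b₁ ha₁r hb₁r (by
        simp only [ha₁, hb₁, H.herm.add_left, add_right H.herm, H.herm.smul_left, smul_right H.herm, map_mul, hε, hσm,
          hQa, hQb, hCab, hsym, hyy, hby, hyb, hya, hm]
        ring) (by
        simp only [ha₁, hb₁, H.herm.add_left, add_right H.herm, H.herm.smul_left, smul_right H.herm, map_mul, hε, hσm,
          hQa, hQb, hCab, hsym, hyy, hby, hyb, hya, hm]
        exact fun h0 => mul_ne_zero hν hν (by linear_combination -h0))
    have e : (1 : F) • (a₁ + ε • b₁) + (-(ε * ε + ε * m)) • y = a + ε • b := by rw [ha₁, hb₁]; module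
    have hne : pullForm n q P (a₁ + ε • b₁) y ≠ 0 := by
      simp only [ha₁, hb₁, H.herm.add_left, H.herm.smul_left, hyy, hm, hby, mul_zero, add_zero, mul_one]
      intro h0
      have := (H.split_zero hε0 hε hmF (one_mem F₀) (by rw [mul_one]; exact h0)).2
      exact one_ne_zero this
    have := centres_pair H.herm hiso h (hCr y hy hyy) hne (k := 1) (l := -(ε * ε + ε * m)) (by rw [e]; exact hvv)
    rwa [e] at this
  clear hvv hvv' hsym hind ha hb a b
  intro a b ha hb hvv hDab
  have hind : ∀ s t : F, s • a + t • b = 0 → s = 0 ∧ t = 0 := by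
    intro s t h
    have h1 := congrArg (fun w => pullForm n q P w a) h
    have h2 := congrArg (fun w => pullForm n q P w b) h
    simp only [H.herm.add_left, H.herm.smul_left, zero_left H.herm] at h1 h2
    exact ⟨(mul_eq_zero.mp (show (pullForm n q P a a * pullForm n q P b b - pullForm n q P a b * pullForm n q P b a)
        * s = 0 by linear_combination pullForm n q P b b * h1 - pullForm n q P b a * h2)).resolve_left hDab,
      (mul_eq_zero.mp (show (pullForm n q P a a * pullForm n q P b b - pullForm n q P a b * pullForm n q P b a)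
        * t = 0 by linear_combination pullForm n q P a a * h2 - pullForm n q P a b * h1)).resolve_left hDab⟩
  have hsym : pullForm n q P b a = pullForm n q P a b := H.symm ha hb
  have hvv' : pullForm n q P a a - ε * ε * pullForm n q P b b = 0 := by
    have := hvv
    simp only [H.herm.add_left, add_right H.herm, H.herm.smul_left, smul_right H.herm, hε, hsym] at this
    linear_combination this
  set c := pullForm n q P a b with hc
  set e := pullForm n q P b b with he
  set W := c + ε * e with hW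
  obtain ⟨u, k, hu, hk, huk⟩ : ∃ u k : F, u ≠ 0 ∧ k ≠ 0 ∧ W + u * u = k * k := by
    by_cases hW0 : W = 0
    · exact ⟨1, 1, one_ne_zero, one_ne_zero, by rw [hW0, zero_add]⟩
    have hq9 : 8 ≤ Fintype.card F := by
      have h3 := Cfsg.Agent.H3.two_le_q hF
      have h4 : q ≠ 2 := fun h => by
        haveI : CharP F 2 := ringChar.of_eq (FiniteField.even_card_iff_char_two.mpr (by rw [hF, h]; norm_num))
        exact H.two CharTwo.two_eq_zero
      have h6 : 3 ≤ q := by omega
      rw [hF]; nlinarith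
    obtain ⟨t, ht⟩ : ((Finset.univ : Finset F) \ (insert 0 ((Polynomial.X ^ 2 - Polynomial.C W).roots.toFinset ∪
        (Polynomial.X ^ 2 - Polynomial.C (-W)).roots.toFinset))).Nonempty := by
      rw [← Finset.card_pos, Finset.card_sdiff_of_subset (Finset.subset_univ _), Finset.card_univ]
      have h5 : ∀ x : F, (Polynomial.X ^ 2 - Polynomial.C x).roots.toFinset.card ≤ 2 := fun x =>
        (Multiset.toFinset_card_le _).trans ((Polynomial.card_roots' _).trans
          (by rw [Polynomial.natDegree_X_pow_sub_C]))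
      have := Finset.card_insert_le (0 : F) ((Polynomial.X ^ 2 - Polynomial.C W).roots.toFinset ∪
        (Polynomial.X ^ 2 - Polynomial.C (-W)).roots.toFinset)
      have := Finset.card_union_le (Polynomial.X ^ 2 - Polynomial.C W).roots.toFinset
        (Polynomial.X ^ 2 - Polynomial.C (-W)).roots.toFinset
      have := h5 W
      have := h5 (-W)
      omega
    simp only [Finset.mem_sdiff, Finset.mem_univ, true_and, Finset.mem_insert, Finset.mem_union, not_or,
      Multiset.mem_toFinset, Polynomial.mem_roots (Polynomial.X_pow_sub_C_ne_zero two_pos _), Polynomial.IsRoot,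
      Polynomial.eval_sub, Polynomial.eval_pow, Polynomial.eval_X, Polynomial.eval_C, sub_eq_zero] at ht
    obtain ⟨ht0, ht1, ht2⟩ := ht
    have h2 := H.two
    refine ⟨(t - W / t) / 2, (t + W / t) / 2, ?_, ?_, by field_simp; ring⟩
    · intro h; refine ht1 ?_
      field_simp at h
      linear_combination h
    · intro h; refine ht2 ?_
      field_simp at h
      linear_combination h
  obtain ⟨A, B, hA, hB, hAB⟩ : ∃ A B : F, A ∈ F₀ ∧ B ∈ F₀ ∧ u = A + ε * B := by
    refine ⟨(u + frobQ hF u) / 2, (u - frobQ hF u) / (2 * ε), (H.fixed _).mp ?_, (H.fixed _).mp ?_, ?_⟩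
    · rw [map_div₀, map_add, H.herm.involutive, map_ofNat, add_comm]
    · rw [map_div₀, map_sub, H.herm.involutive, map_mul, map_ofNat, hε, mul_neg, ← neg_sub u, neg_div_neg_eq]
    · have h2 := H.two
      field_simp
      ring
  obtain ⟨z, hz, hzz, hza, hzb⟩ := H.exists_iso_prescribed ha hb hind hDab hA hB
  have haz : pullForm n q P a z = A := by rw [H.symm hz ha]; exact hza
  have hbz : pullForm n q P b z = B := by rw [H.symm hz hb]; exact hzb
  have hvz : pullForm n q P (a + ε • b) z = u := by rw [H.herm.add_left, H.herm.smul_left, haz, hbz, hAB]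
  set κ := ε * u with hκ
  set v₂ := (a + ε • b) + κ • z with hv₂
  -- rescale to a hyperbolic plane
  obtain ⟨a₃, b₃, ha₃, hb₃, h3⟩ := H.decomp hε0 hε (k⁻¹ • v₂)
  have hσu : frobQ hF u = A - ε * B := by
    rw [hAB, map_add, map_mul, hε, (H.fixed _).mpr hA, (H.fixed _).mpr hB]; ring
  have hσκ : frobQ hF κ = -ε * (A - ε * B) := by rw [hκ, map_mul, hε, hσu]
  have hbar : (fun i => frobQ hF (v₂ i)) = a - ε • b + frobQ hF κ • z := funext fun i => by
    simp only [hv₂, Pi.add_apply, Pi.sub_apply, Pi.smul_apply, smul_eq_mul, map_add, map_mul, hε,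
      H.sigma_rat ha i, H.sigma_rat hb i, H.sigma_rat hz i]
    ring
  clear_value κ
  have hv₂v₂ : pullForm n q P v₂ v₂ = 0 := by
    simp only [hv₂, H.herm.add_left, add_right H.herm, H.herm.smul_left, smul_right H.herm, hε, haz, hbz, hza, hzb,
      hzz, hsym, ← he, hσκ]
    rw [hκ, hAB]
    linear_combination hvv'
  have hbil : pullForm n q P v₂ (fun i => frobQ hF (v₂ i)) = 2 * ε * (k * k) := by
    rw [hbar]
    simp only [hv₂, H.herm.add_left, add_right H.herm, sub_right H.herm, H.herm.smul_left, smul_right H.herm,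
      H.herm.involutive, hε, haz, hbz, hza, hzb, hzz, hsym, ← he]
    rw [hκ, ← huk, hW, hAB]
    linear_combination hvv'
  have hkinv : k⁻¹ ≠ 0 := inv_ne_zero hk
  have h33 : pullForm n q P (a₃ + ε • b₃) (a₃ + ε • b₃) = 0 := by
    rw [← h3, H.herm.smul_left, smul_right H.herm, hv₂v₂, mul_zero, mul_zero]
  have h33' : pullForm n q P (a₃ + ε • b₃) (a₃ - ε • b₃) = 2 * ε := by
    have e : a₃ - ε • b₃ = frobQ hF k⁻¹ • fun i => frobQ hF (v₂ i) := funext fun i => by
      have := congrArg (frobQ hF) (congrFun h3 i)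
      simp only [Pi.smul_apply, Pi.add_apply, smul_eq_mul, map_mul, map_add, hε, H.sigma_rat ha₃ i,
        H.sigma_rat hb₃ i] at this
      simp only [Pi.sub_apply, Pi.smul_apply, smul_eq_mul]
      linear_combination -this
    rw [e, ← h3, H.herm.smul_left, smul_right H.herm, H.herm.involutive, hbil]
    field_simp
  have hsym₃ : pullForm n q P b₃ a₃ = pullForm n q P a₃ b₃ := H.symm ha₃ hb₃
  simp only [H.herm.add_left, add_right H.herm, sub_right H.herm, H.herm.smul_left, smul_right H.herm, hε, hsym₃]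
    at h33 h33'
  have hsplit := H.split_zero hε0 hε
    (c := 2 * pullForm n q P a₃ a₃) (d := 2 * (pullForm n q P a₃ b₃ - 1))
    (mul_mem H.two_mem (H.rat _ _ ha₃ ha₃)) (mul_mem H.two_mem (sub_mem (H.rat _ _ ha₃ hb₃) (one_mem _)))
    (by linear_combination h33 + h33')
  have hQa : pullForm n q P a₃ a₃ = 0 := (mul_eq_zero.mp hsplit.1).resolve_left H.two
  have hc1 : pullForm n q P a₃ b₃ = 1 := sub_eq_zero.mp ((mul_eq_zero.mp hsplit.2).resolve_left H.two)
  have hQb : pullForm n q P b₃ b₃ = 0 := by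
    rw [hQa] at h33
    exact (mul_eq_zero.mp (show (ε * ε) * pullForm n q P b₃ b₃ = 0 by linear_combination -h33)).resolve_left hεε
  have hC3 : a₃ + ε • b₃ ∈ centres H.herm M := by
    have h := centres_pair H.herm hiso (hCr a₃ ha₃ hQa) (hCr b₃ hb₃ hQb) (by rw [hc1]; exact one_ne_zero)
      (k := 1) (l := ε) (by
        simp only [one_smul, H.herm.add_left, add_right H.herm, H.herm.smul_left, smul_right H.herm, hε, hsym₃, hQa,
          hQb]
        ring)
    rwa [one_smul] at h
  rw [← h3] at hC3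
  have hC2 : v₂ ∈ centres H.herm M := by
    have := centres_smul H.herm hC3 k
    rwa [smul_smul, mul_inv_cancel₀ hk, one_smul] at this
  have e5 : (1 : F) • v₂ + (-κ) • z = a + ε • b := by rw [hv₂]; module
  have := centres_pair H.herm hiso hC2 (hCr z hz hzz)
    (by rw [hv₂, H.herm.add_left, H.herm.smul_left, hzz, hvz, mul_zero, add_zero]; exact hu) (k := 1) (l := -κ)
    (by rw [e5]; exact hvv)
  rwa [e5] at this


end

end Cfsg.Agent.H60.SUFour
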