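import Cfsg.Agent.H60.SUFour.OrthMain
import Cfsg.Prelude.Def_GeometricClasses

set_option autoImplicit false
set_option linter.style.haveILetI false

/-!
# Orthogonal subfield subgroups of `SU_4`, in the form of the statements
-/

namespace Cfsg.Agent.H60.SUFour

/-- Degree two subfields, orthogonal type. -/
theorem su4_subfield_orth_maximal {F : Type*} [Field F] [Fintype F] (q : ℕ) (hF : Fintype.card F = q ^ 2)
    (hodd : Odd q) (h5 : 5 ≤ q) (F₀ : Subfield F) (hcard : Fintype.card F = Nat.card F₀ ^ 2)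
    (P : Matrix.GeneralLinearGroup (Fin 4) F)
    (hP : Cfsg.Geo.IsFormRationalStructure (Cfsg.hermForm 4 F q) F₀ 1 P) :
    Cfsg.Geo.IsMaximalIn (Cfsg.GU 4 F q ⊓ Cfsg.Geo.specialLinear (Fin 4) F)
      (Cfsg.Geo.subfieldSubgroup F₀ P ⊓ (Cfsg.GU 4 F q ⊓ Cfsg.Geo.specialLinear (Fin 4) F)) := by
  refine Cfsg.Agent.H98.Herm.su_subfield_of_pull F₀ P ?_
  refine OrthFour.maximal (hF := hF) ⟨rfl, h5, ?_, ?_, Cfsg.Agent.H98.Herm.frobQ_fixed_iff hF hcard,
    fun u v hu hv => by simpa [Cfsg.Agent.H98.Herm.pullForm] using (hP u v hu hv)⟩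
  · exact (Nat.pow_left_injective (by norm_num : (2 : ℕ) ≠ 0) (hF.symm.trans hcard)).symm
  intro h2
  haveI : CharP F 2 := CharTwo.of_one_ne_zero_of_two_eq_zero one_ne_zero h2
  have h := FiniteField.even_card_iff_char_two.mp (ringChar.eq F 2)
  rw [hF] at h
  exact absurd (hodd.pow (n := 2)) (Nat.not_odd_iff.mpr h)

end Cfsg.Agent.H60.SUFour
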